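import Cfsg.Agent.Lib.Majorana.Basic

/-!
# One axis and one vector

For a Majorana pair `(μ, a)` with `B a a = 1` and a vector `b`, the eigenvalue decomposition of `b`
relative to `a` is written through `s = a b - (a + b) / 32` and `u = (b + μ b) / 2`.
-/

set_option autoImplicit false

namespace Cfsg.Agent.Lib.Majorana.Axis

open Cfsg.Axial Cfsg.Agent.Lib.Majorana.Basic

variable {V : Type*} [AddCommGroup V] [Module ℝ V] {mul : V →ₗ[ℝ] V →ₗ[ℝ] V}
  {B : LinearMap.BilinForm ℝ V} {μ : V ≃ₗ[ℝ] V} {a : V}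

/-- The vector `a b - (a + b) / 32`. -/
noncomputable def sv (mul : V →ₗ[ℝ] V →ₗ[ℝ] V) (a b : V) : V := mul a b - (1 / 32 : ℝ) • (a + b)

lemma comm_mul (hV : IsMajoranaAmbient mul B) (x y : V) : mul x y = mul y x := hV.1 x y

lemma B_comm (hV : IsMajoranaAmbient mul B) (x y : V) : B x y = B y x := hV.2.1 x y

lemma B_assoc (hV : IsMajoranaAmbient mul B) (x y z : V) : B (mul x y) z = B x (mul y z) :=
  (hV.2.2.2.1 x y z).symm

lemma sv_comm (hV : IsMajoranaAmbient mul B) (x y : V) : sv mul x y = sv mul y x := by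
  unfold sv
  rw [comm_mul hV x y, add_comm x y]

/-- Decomposition of a vector with the coefficient of `a` computed. -/
lemma exists_dec (hV : IsMajoranaAmbient mul B) (h : IsMajoranaPair mul B μ a) (hn : B a a = 1)
    (b : V) : ∃ e0 e4 e32 : V, e0 ∈ eigen mul a 0 ∧ e4 ∈ eigen mul a (1 / 4) ∧
      e32 ∈ eigen mul a (1 / 32) ∧ b = (B a b) • a + e0 + e4 + e32 := by
  obtain ⟨r, e0, e4, e32, h0, h4, h32, hb⟩ := decomp h b
  have ha1 : a ∈ eigen mul a 1 := self_mem_eigen_one h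
  have o0 : B a e0 = 0 := eigen_orth hV ha1 h0 (by norm_num)
  have o4 : B a e4 = 0 := eigen_orth hV ha1 h4 (by norm_num)
  have o32 : B a e32 = 0 := eigen_orth hV ha1 h32 (by norm_num)
  have hr : B a b = r := by
    rw [hb]
    simp only [map_add, map_smul, smul_eq_mul, o0, o4, o32, hn]
    ring
  exact ⟨e0, e4, e32, h0, h4, h32, by rw [hr]; exact hb⟩

/-- All the data of `b` relative to `a`. -/
structure AxisData (mul : V →ₗ[ℝ] V →ₗ[ℝ] V) (B : LinearMap.BilinForm ℝ V) (μ : V ≃ₗ[ℝ] V) (a b : V)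
    (e0 e4 : V) : Prop where
  h0 : e0 ∈ eigen mul a 0
  h4 : e4 ∈ eigen mul a (1 / 4)
  e4_eq : e4 = (4 : ℝ) • sv mul a b + (1 / 8 : ℝ) • ((1 / 2 : ℝ) • (b + μ b)) +
    (-(32 * B a b - 1) / 8 : ℝ) • a
  e0_eq : e0 = (-4 : ℝ) • sv mul a b + (7 / 8 : ℝ) • ((1 / 2 : ℝ) • (b + μ b)) +
    ((24 * B a b - 1) / 8 : ℝ) • a
  mul_u : mul a ((1 / 2 : ℝ) • (b + μ b)) = sv mul a b + (1 / 32 : ℝ) • (a + (1 / 2 : ℝ) • (b + μ b))
  mul_s : mul a (sv mul a b) = (7 / 32 : ℝ) • sv mul a b +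
    (7 / 1024 : ℝ) • ((1 / 2 : ℝ) • (b + μ b)) + ((768 * B a b - 25) / 1024 : ℝ) • a
  sv_mu : sv mul a (μ b) = sv mul a b

lemma exists_axisData (hV : IsMajoranaAmbient mul B) (h : IsMajoranaPair mul B μ a) (hn : B a a = 1)
    (b : V) : ∃ e0 e4 : V, AxisData mul B μ a b e0 e4 := by
  obtain ⟨e0, e4, e32, h0, h4, h32, hb⟩ := exists_dec hV h hn b
  set β := B a b with hβ
  have hm0 : mul a e0 = 0 := by
    have := mem_eigen.mp h0
    simpa using this
  have hm4 : mul a e4 = (1 / 4 : ℝ) • e4 := mem_eigen.mp h4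
  have hm32 : mul a e32 = (1 / 32 : ℝ) • e32 := mem_eigen.mp h32
  have hid : mul a a = a := idem h
  have hμa : μ a = a := mu_self h
  have hμ0 : μ e0 = e0 := mu_fix_zero h h0
  have hμ4 : μ e4 = e4 := mu_fix_four h h4
  have hμ32 : μ e32 = -e32 := mu_neg h h32
  have hμb : μ b = β • a + e0 + e4 - e32 := by
    rw [hb]
    simp only [map_add, map_smul, hμa, hμ0, hμ4, hμ32]
    abel
  have hab : mul a b = β • a + (1 / 4 : ℝ) • e4 + (1 / 32 : ℝ) • e32 := by
    conv_lhs => rw [hb]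
    simp only [map_add, map_smul, hid, hm0, hm4, hm32]
    abel
  have haμb : mul a (μ b) = β • a + (1 / 4 : ℝ) • e4 - (1 / 32 : ℝ) • e32 := by
    rw [hμb]
    simp only [map_add, map_sub, map_smul, hid, hm0, hm4, hm32]
    abel
  have hs : sv mul a b = ((31 * β - 1) / 32 : ℝ) • a + (7 / 32 : ℝ) • e4 - (1 / 32 : ℝ) • e0 := by
    unfold sv
    rw [hab]
    conv_lhs => rw [hb]
    module
  have hu : (1 / 2 : ℝ) • (b + μ b) = β • a + e0 + e4 := by
    rw [hμb]
    conv_lhs => rw [hb]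
    module
  refine ⟨e0, e4, ⟨h0, h4, ?_, ?_, ?_, ?_, ?_⟩⟩
  · rw [hs, hu]
    module
  · rw [hs, hu]
    module
  · rw [hu, hs]
    simp only [map_add, map_smul, hid, hm0, hm4]
    module
  · rw [hs, hu]
    simp only [map_add, map_sub, map_smul, hid, hm0, hm4]
    module
  · unfold sv
    rw [hab, haμb, hμb]
    conv_rhs => rw [hb]
    module

/-- The three fusion consequences for the `0` and `1/4` components. -/
lemma fusion_facts (hV : IsMajoranaAmbient mul B) (h : IsMajoranaPair mul B μ a) (hn : B a a = 1)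
    {e0 e4 : V} (h0 : e0 ∈ eigen mul a 0) (h4 : e4 ∈ eigen mul a (1 / 4)) :
    mul a (mul e0 e0) = 0 ∧ mul a (mul e4 e4) = ((1 / 4 : ℝ) * B e4 e4) • a ∧
      mul a (mul e0 e4) = (1 / 4 : ℝ) • mul e0 e4 := by
  refine ⟨?_, ?_, ?_⟩
  · have := mem_eigen.mp (fusion_0_0 h h0 h0)
    simpa using this
  · obtain ⟨x, hx, y, hy, hxy⟩ := Submodule.mem_sup.mp (fusion_4_4 h h4 h4)
    obtain ⟨r, rfl⟩ := mem_eigen_one h hx
    have ha1 : a ∈ eigen mul a 1 := self_mem_eigen_one h
    have oy : B a y = 0 := eigen_orth hV ha1 hy (by norm_num)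
    have h1 : B a (mul e4 e4) = r := by
      rw [← hxy]
      simp only [map_add, map_smul, smul_eq_mul, oy, hn]
      ring
    have h2 : B a (mul e4 e4) = (1 / 4 : ℝ) * B e4 e4 := by
      rw [← B_assoc hV, mem_eigen.mp h4]
      simp
    have hy0 : mul a y = 0 := by
      have := mem_eigen.mp hy
      simpa using this
    rw [← hxy]
    simp only [map_add, map_smul, idem h, hy0, add_zero]
    rw [← h2, h1]
  · exact mem_eigen.mp (fusion_0_4 h h0 h4)

/-- The norm of the `1/4`-component of a unit idempotent `b`. -/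
lemma norm_e4 (hV : IsMajoranaAmbient mul B) (h : IsMajoranaPair mul B μ a) (hn : B a a = 1)
    {b e0 e4 : V} (hd : AxisData mul B μ a b e0 e4) (hbb : mul b b = b) (hbn : B b b = 1) :
    B e4 e4 = 4 * B a b * (1 - B a b) - (1 - B b (μ b)) / 16 := by
  obtain ⟨e0', e4', e32, h0, h4, h32, hb⟩ := exists_dec hV h hn b
  -- the component is the same
  set β := B a b with hβ
  have hu : (1 / 2 : ℝ) • (b + μ b) = β • a + e0' + e4' := by
    have hμb : μ b = β • a + e0' + e4' - e32 := by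
      conv_lhs => rw [hb]
      simp only [map_add, map_smul, mu_self h, mu_fix_zero h h0, mu_fix_four h h4, mu_neg h h32]
      abel
    rw [hμb]
    conv_lhs => rw [hb]
    module
  have hm0 : mul a e0' = 0 := by
    have := mem_eigen.mp h0
    simpa using this
  have hm4 : mul a e4' = (1 / 4 : ℝ) • e4' := mem_eigen.mp h4
  have hm32 : mul a e32 = (1 / 32 : ℝ) • e32 := mem_eigen.mp h32
  have hab : mul a b = β • a + (1 / 4 : ℝ) • e4' + (1 / 32 : ℝ) • e32 := by
    conv_lhs => rw [hb]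
    simp only [map_add, map_smul, idem h, hm0, hm4, hm32]
    abel
  have hs : sv mul a b = ((31 * β - 1) / 32 : ℝ) • a + (7 / 32 : ℝ) • e4' -
      (1 / 32 : ℝ) • e0' := by
    unfold sv
    rw [hab]
    conv_lhs => rw [hb]
    module
  have he4 : e4 = e4' := by
    rw [hd.e4_eq, hs, hu]
    module
  subst he4
  have ha1 : a ∈ eigen mul a 1 := self_mem_eigen_one h
  have o1 : B e4 a = 0 := eigen_orth hV h4 ha1 (by norm_num)
  have o2 : B e4 e0' = 0 := eigen_orth hV h4 h0 (by norm_num)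
  have o3 : B e4 e32 = 0 := eigen_orth hV h4 h32 (by norm_num)
  have h1 : B e4 b = B e4 e4 := by
    conv_lhs => rw [hb]
    simp only [map_add, map_smul, smul_eq_mul, o1, o2, o3]
    ring
  rw [← h1, hd.e4_eq]
  simp only [map_add, map_smul, LinearMap.add_apply, LinearMap.smul_apply, smul_eq_mul]
  have h2 : B (sv mul a b) b = (31 * β - 1) / 32 := by
    unfold sv
    simp only [map_sub, map_add, map_smul, LinearMap.sub_apply, LinearMap.add_apply,
      LinearMap.smul_apply, smul_eq_mul]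
    rw [B_assoc hV, hbb, hbn, ← hβ]
    ring
  rw [h2, hbn, B_comm hV (μ b) b, ← hβ]
  ring

end Cfsg.Agent.Lib.Majorana.Axis
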