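import Cfsg.Prelude.Def_AxialAlgebras

/-!
# Basic API for Majorana pairs

Eigenvalue decomposition, orthogonality of eigenspaces, fusion rules and conjugation of
Majorana pairs by automorphisms.
-/

set_option autoImplicit false

namespace Cfsg.Agent.Lib.Majorana.Basic

open Cfsg.Axial

variable {V : Type*} [AddCommGroup V] [Module ℝ V] {mul : V →ₗ[ℝ] V →ₗ[ℝ] V}
  {B : LinearMap.BilinForm ℝ V} {μ : V ≃ₗ[ℝ] V} {a : V}

lemma mem_eigen {x : V} {c : ℝ} : x ∈ eigen mul a c ↔ mul a x = c • x :=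
  Module.End.mem_eigenspace_iff

/-- Eigenspaces of different eigenvalues are orthogonal. -/
lemma eigen_orth (hV : IsMajoranaAmbient mul B) {x y : V} {c d : ℝ} (hx : x ∈ eigen mul a c)
    (hy : y ∈ eigen mul a d) (hcd : c ≠ d) : B x y = 0 := by
  obtain ⟨hcomm, -, -, hassoc, -⟩ := hV
  rw [mem_eigen] at hx hy
  have h1 : B x (mul a y) = B (mul x a) y := hassoc x a y
  rw [hy, hcomm x a, hx] at h1
  simp only [map_smul, LinearMap.smul_apply, smul_eq_mul] at h1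
  have h2 : (c - d) * B x y = 0 := by linarith
  exact (mul_eq_zero.mp h2).resolve_left (sub_ne_zero.mpr hcd)

lemma eq_zero_of_self (hV : IsMajoranaAmbient mul B) {x : V} (h : B x x = 0) : x = 0 := by
  by_contra hne
  have := hV.2.2.1 x hne
  linarith

lemma idem (h : IsMajoranaPair mul B μ a) : mul a a = a := h.2.2.1.1.2.1

lemma ne_zero (h : IsMajoranaPair mul B μ a) : a ≠ 0 := h.2.2.1.1.1

lemma eigen_one (h : IsMajoranaPair mul B μ a) : eigen mul a 1 = Submodule.span ℝ {a} := h.2.2.1.2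

lemma self_mem_eigen_one (h : IsMajoranaPair mul B μ a) : a ∈ eigen mul a 1 := by
  rw [mem_eigen, idem h, one_smul]

lemma mem_eigen_one (h : IsMajoranaPair mul B μ a) {x : V} (hx : x ∈ eigen mul a 1) :
    ∃ r : ℝ, x = r • a := by
  rw [eigen_one h, Submodule.mem_span_singleton] at hx
  obtain ⟨r, rfl⟩ := hx
  exact ⟨r, rfl⟩

lemma eigenSum_eq (S : Set ℝ) (c : ℝ) :
    eigenSum mul a (insert c S) = eigen mul a c ⊔ eigenSum mul a S := by
  simp only [eigenSum, iSup_insert]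

lemma eigenSum_singleton (c : ℝ) : eigenSum mul a {c} = eigen mul a c := by
  simp only [eigenSum, iSup_singleton]

/-- The eigenvalue decomposition of a vector. -/
lemma decomp (h : IsMajoranaPair mul B μ a) (x : V) :
    ∃ (r : ℝ) (e0 e4 e32 : V), e0 ∈ eigen mul a 0 ∧ e4 ∈ eigen mul a (1 / 4) ∧
      e32 ∈ eigen mul a (1 / 32) ∧ x = r • a + e0 + e4 + e32 := by
  have htop : eigenSum mul a majoranaSpectrum = ⊤ := h.2.2.1.1.2.2.1
  have hx : x ∈ eigenSum mul a majoranaSpectrum := by rw [htop]; trivial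
  rw [majoranaSpectrum, eigenSum_eq, eigenSum_eq, eigenSum_eq, eigenSum_singleton] at hx
  obtain ⟨x1, hx1, y1, hy1, rfl⟩ := Submodule.mem_sup.mp hx
  obtain ⟨x0, hx0, y0, hy0, rfl⟩ := Submodule.mem_sup.mp hy1
  obtain ⟨x4, hx4, x32, hx32, rfl⟩ := Submodule.mem_sup.mp hy0
  obtain ⟨r, rfl⟩ := mem_eigen_one h hx1
  exact ⟨r, x0, x4, x32, hx0, hx4, hx32, by abel⟩

private lemma law_spec {c : ℝ} (hc : c = 1 ∨ c = 0 ∨ c = 1 / 4 ∨ c = 1 / 32) :
    c ∈ majoranaSpectrum := by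
  simp only [majoranaSpectrum, Set.mem_insert_iff, Set.mem_singleton_iff]
  exact hc

/-- Generic fusion statement. -/
lemma fusion (h : IsMajoranaPair mul B μ a) {c d : ℝ}
    (hc : c = 1 ∨ c = 0 ∨ c = 1 / 4 ∨ c = 1 / 32) (hd : d = 1 ∨ d = 0 ∨ d = 1 / 4 ∨ d = 1 / 32)
    {x y : V} (hx : x ∈ eigen mul a c) (hy : y ∈ eigen mul a d) :
    mul x y ∈ eigenSum mul a (monsterLaw (1 / 4) (1 / 32) c d) :=
  h.2.2.1.1.2.2.2 c (law_spec hc) d (law_spec hd) x hx y hy

lemma fusion_0_0 (h : IsMajoranaPair mul B μ a) {x y : V} (hx : x ∈ eigen mul a 0)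
    (hy : y ∈ eigen mul a 0) : mul x y ∈ eigen mul a 0 := by
  have := fusion h (Or.inr (Or.inl rfl)) (Or.inr (Or.inl rfl)) hx hy
  have hlaw : monsterLaw (1 / 4 : ℝ) (1 / 32) 0 0 = {0} := by
    simp [monsterLaw]
  rwa [hlaw, eigenSum_singleton] at this

lemma fusion_0_4 (h : IsMajoranaPair mul B μ a) {x y : V} (hx : x ∈ eigen mul a 0)
    (hy : y ∈ eigen mul a (1 / 4)) : mul x y ∈ eigen mul a (1 / 4) := by
  have := fusion h (Or.inr (Or.inl rfl)) (Or.inr (Or.inr (Or.inl rfl))) hx hy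
  have hlaw : monsterLaw (1 / 4 : ℝ) (1 / 32) 0 (1 / 4) = {1 / 4} := by
    simp [monsterLaw]
  rwa [hlaw, eigenSum_singleton] at this

lemma fusion_4_4 (h : IsMajoranaPair mul B μ a) {x y : V} (hx : x ∈ eigen mul a (1 / 4))
    (hy : y ∈ eigen mul a (1 / 4)) : mul x y ∈ eigen mul a 1 ⊔ eigen mul a 0 := by
  have := fusion h (Or.inr (Or.inr (Or.inl rfl))) (Or.inr (Or.inr (Or.inl rfl))) hx hy
  have hlaw : monsterLaw (1 / 4 : ℝ) (1 / 32) (1 / 4) (1 / 4) = {1, 0} := by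
    simp [monsterLaw]
  rwa [hlaw, eigenSum_eq, eigenSum_singleton] at this

lemma fusion_0_32 (h : IsMajoranaPair mul B μ a) {x y : V} (hx : x ∈ eigen mul a 0)
    (hy : y ∈ eigen mul a (1 / 32)) : mul x y ∈ eigen mul a (1 / 32) := by
  have := fusion h (Or.inr (Or.inl rfl)) (Or.inr (Or.inr (Or.inr rfl))) hx hy
  have hlaw : monsterLaw (1 / 4 : ℝ) (1 / 32) 0 (1 / 32) = {1 / 32} := by
    simp [monsterLaw]
  rwa [hlaw, eigenSum_singleton] at this

lemma fusion_4_32 (h : IsMajoranaPair mul B μ a) {x y : V} (hx : x ∈ eigen mul a (1 / 4))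
    (hy : y ∈ eigen mul a (1 / 32)) : mul x y ∈ eigen mul a (1 / 32) := by
  have := fusion h (Or.inr (Or.inr (Or.inl rfl))) (Or.inr (Or.inr (Or.inr rfl))) hx hy
  have hlaw : monsterLaw (1 / 4 : ℝ) (1 / 32) (1 / 4) (1 / 32) = {1 / 32} := by
    simp [monsterLaw]
  rwa [hlaw, eigenSum_singleton] at this

lemma fusion_32_32 (h : IsMajoranaPair mul B μ a) {x y : V} (hx : x ∈ eigen mul a (1 / 32))
    (hy : y ∈ eigen mul a (1 / 32)) :
    mul x y ∈ eigen mul a 1 ⊔ (eigen mul a 0 ⊔ eigen mul a (1 / 4)) := by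
  have := fusion h (Or.inr (Or.inr (Or.inr rfl))) (Or.inr (Or.inr (Or.inr rfl))) hx hy
  have hlaw : monsterLaw (1 / 4 : ℝ) (1 / 32) (1 / 32) (1 / 32) = {1, 0, 1 / 4} := by
    simp [monsterLaw]
  rwa [hlaw, eigenSum_eq, eigenSum_eq, eigenSum_singleton] at this

/-- The Miyamoto involution fixes the `1`, `0`, `1/4`-eigenvectors. -/
lemma mu_fix_of_mem (h : IsMajoranaPair mul B μ a) {x : V} (hx : x ∈ eigen mul a 1 ⊔
    (eigen mul a 0 ⊔ eigen mul a (1 / 4))) : μ x = x := by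
  have h1 := h.2.2.2.1
  apply h1
  rw [eigenSum_eq, eigenSum_eq, eigenSum_singleton]
  exact hx

lemma mu_fix_one (h : IsMajoranaPair mul B μ a) {x : V} (hx : x ∈ eigen mul a 1) : μ x = x :=
  mu_fix_of_mem h (Submodule.mem_sup_left hx)

lemma mu_fix_zero (h : IsMajoranaPair mul B μ a) {x : V} (hx : x ∈ eigen mul a 0) : μ x = x :=
  mu_fix_of_mem h (Submodule.mem_sup_right (Submodule.mem_sup_left hx))

lemma mu_fix_four (h : IsMajoranaPair mul B μ a) {x : V} (hx : x ∈ eigen mul a (1 / 4)) :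
    μ x = x :=
  mu_fix_of_mem h (Submodule.mem_sup_right (Submodule.mem_sup_right hx))

lemma mu_neg (h : IsMajoranaPair mul B μ a) {x : V} (hx : x ∈ eigen mul a (1 / 32)) : μ x = -x :=
  h.2.2.2.2 x hx

lemma mu_self (h : IsMajoranaPair mul B μ a) : μ a = a := mu_fix_one h (self_mem_eigen_one h)

/-- A Majorana involution is an involution. -/
lemma mu_mu (h : IsMajoranaPair mul B μ a) (x : V) : μ (μ x) = x := by
  obtain ⟨r, e0, e4, e32, h0, h4, h32, rfl⟩ := decomp h x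
  simp only [map_add, map_smul, mu_self h, mu_fix_zero h h0, mu_fix_four h h4, mu_neg h h32,
    map_neg, neg_neg]

/-- The Majorana involution squares to the identity in the group of automorphisms. -/
lemma mu_mul_mu (h : IsMajoranaPair mul B μ a) : μ * μ = 1 := by
  ext x
  exact mu_mu h x

lemma mu_inv (h : IsMajoranaPair mul B μ a) : μ⁻¹ = μ :=
  inv_eq_of_mul_eq_one_left (mu_mul_mu h)

/-! ### Uniqueness of the decomposition -/

/-- If a sum of `1`, `0`, `1/4`, `1/32`-eigenvectors vanishes, all summands vanish. -/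
lemma eigen_indep (hV : IsMajoranaAmbient mul B) {x1 x0 x4 x32 : V} (h1 : x1 ∈ eigen mul a 1)
    (h0 : x0 ∈ eigen mul a 0) (h4 : x4 ∈ eigen mul a (1 / 4)) (h32 : x32 ∈ eigen mul a (1 / 32))
    (hs : x1 + x0 + x4 + x32 = 0) : x1 = 0 ∧ x0 = 0 ∧ x4 = 0 ∧ x32 = 0 := by
  have hself : ∀ {c : ℝ} {x : V} (hx : x ∈ eigen mul a c),
      (∀ y z w : V, ∀ d e f : ℝ, y ∈ eigen mul a d → z ∈ eigen mul a e → w ∈ eigen mul a f →
        c ≠ d → c ≠ e → c ≠ f → x + y + z + w = 0 → x = 0) := by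
    intro c x hx y z w d e f hy hz hw hd he hf hsum
    apply eq_zero_of_self hV
    have hxy := eigen_orth hV hx hy hd
    have hxz := eigen_orth hV hx hz he
    have hxw := eigen_orth hV hx hw hf
    have h2 : B x (x + y + z + w) = 0 := by rw [hsum, map_zero]
    simp only [map_add, hxy, hxz, hxw, add_zero] at h2
    exact h2
  refine ⟨hself h1 x0 x4 x32 0 (1 / 4) (1 / 32) h0 h4 h32 (by norm_num) (by norm_num) (by norm_num)
      hs, hself h0 x1 x4 x32 1 (1 / 4) (1 / 32) h1 h4 h32 (by norm_num) (by norm_num) (by norm_num)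
      (by rw [← hs]; abel), hself h4 x1 x0 x32 1 0 (1 / 32) h1 h0 h32 (by norm_num) (by norm_num)
      (by norm_num) (by rw [← hs]; abel), hself h32 x1 x0 x4 1 0 (1 / 4) h1 h0 h4 (by norm_num)
      (by norm_num) (by norm_num) (by rw [← hs]; abel)⟩

/-! ### Transport of a Majorana pair along an automorphism -/

section Transport

variable (φ : V ≃ₗ[ℝ] V) (hφm : ∀ u v, φ (mul u v) = mul (φ u) (φ v))

include hφm

lemma eigen_map (c : ℝ) : eigen mul (φ a) c = (eigen mul a c).map (φ : V →ₗ[ℝ] V) := by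
  ext x
  constructor
  · intro hx
    rw [mem_eigen] at hx
    refine ⟨φ.symm x, ?_, by simp⟩
    show φ.symm x ∈ eigen mul a c
    rw [mem_eigen]
    apply φ.injective
    rw [hφm, map_smul]
    simpa using hx
  · rintro ⟨y, hy, rfl⟩
    have hy' : y ∈ eigen mul a c := hy
    rw [mem_eigen] at hy' ⊢
    show mul (φ a) (φ y) = c • φ y
    rw [← hφm, hy', map_smul]

lemma eigenSum_map (S : Set ℝ) :
    eigenSum mul (φ a) S = (eigenSum mul a S).map (φ : V →ₗ[ℝ] V) := by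
  simp only [eigenSum, Submodule.map_iSup, eigen_map φ hφm]

/-- Transport of a Majorana pair along an automorphism of the product (and of the form). -/
lemma pair_conj (hφB : ∀ u v, B (φ u) (φ v) = B u v) (h : IsMajoranaPair mul B μ a) :
    IsMajoranaPair mul B (φ⁻¹.trans (μ.trans φ)) (φ a) := by
  obtain ⟨hm, hb, ⟨⟨ha0, hidem, hsum, hfus⟩, hprim⟩, hmiy1, hmiy2⟩ := h
  refine ⟨?_, ?_, ⟨⟨?_, ?_, ?_, ?_⟩, ?_⟩, ?_, ?_⟩
  · intro u v
    have h1 : ∀ x, (φ⁻¹.trans (μ.trans φ)) x = φ (μ (φ⁻¹ x)) := fun _ => rfl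
    have h2 : ∀ x, φ (φ⁻¹ x) = x := fun x => φ.apply_symm_apply x
    have h3 : φ⁻¹ (mul u v) = mul (φ⁻¹ u) (φ⁻¹ v) := by
      apply φ.injective
      rw [hφm, h2, h2, h2]
    rw [h1, h1, h1, h3, hm, hφm]
  · intro u v
    have h1 : ∀ x, (φ⁻¹.trans (μ.trans φ)) x = φ (μ (φ⁻¹ x)) := fun _ => rfl
    have h2 : ∀ x, φ (φ⁻¹ x) = x := fun x => φ.apply_symm_apply x
    rw [h1, h1, hφB, hb]
    rw [← hφB (φ⁻¹ u) (φ⁻¹ v), h2, h2]
  · intro h0
    apply ha0
    exact φ.map_eq_zero_iff.mp h0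
  · rw [← hφm, hidem]
  · rw [eigenSum_map φ hφm, hsum, Submodule.map_top, LinearEquiv.range]
  · intro c hc d hd u hu v hv
    rw [eigen_map φ hφm] at hu hv
    obtain ⟨u', hu', rfl⟩ := hu
    obtain ⟨v', hv', rfl⟩ := hv
    rw [eigenSum_map φ hφm]
    exact ⟨mul u' v', hfus c hc d hd u' hu' v' hv', (hφm u' v')⟩
  · rw [eigen_map φ hφm, hprim, Submodule.map_span, Set.image_singleton]
    rfl
  · intro x hx
    rw [eigenSum_map φ hφm] at hx
    obtain ⟨y, hy, rfl⟩ := hx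
    show φ (μ (φ⁻¹ (φ y))) = φ y
    have h1 : φ⁻¹ (φ y) = y := φ.symm_apply_apply y
    rw [h1]
    have h2 : μ y = y := hmiy1 y hy
    rw [h2]
  · intro x hx
    rw [eigen_map φ hφm] at hx
    obtain ⟨y, hy, rfl⟩ := hx
    show φ (μ (φ⁻¹ (φ y))) = - φ y
    have h1 : φ⁻¹ (φ y) = y := φ.symm_apply_apply y
    rw [h1]
    have h2 : μ y = -y := hmiy2 y hy
    rw [h2, map_neg]

end Transport

end Cfsg.Agent.Lib.Majorana.Basic
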