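import Cfsg.Agent.Lib.Majorana.Axis

/-!
# The sequence of axes attached to two Majorana pairs

A family `a i` (`i : ℤ`) of unit axes with involutions `t i`, where `t i` reflects the index set in
`i`.  The two products `a₀ · s` and `s · s` are computed (the second in terms of the first).
-/

set_option autoImplicit false

namespace Cfsg.Agent.Lib.Majorana.Fam

open Cfsg.Axial Cfsg.Agent.Lib.Majorana.Basic Cfsg.Agent.Lib.Majorana.Axis

variable {V : Type*} [AddCommGroup V] [Module ℝ V] {mul : V →ₗ[ℝ] V →ₗ[ℝ] V}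
  {B : LinearMap.BilinForm ℝ V}

/-- A reflection-closed family of axes. -/
structure MajFam (mul : V →ₗ[ℝ] V →ₗ[ℝ] V) (B : LinearMap.BilinForm ℝ V) (a : ℤ → V)
    (t : ℤ → V ≃ₗ[ℝ] V) : Prop where
  pair : ∀ i, IsMajoranaPair mul B (t i) (a i)
  unit : ∀ i, B (a i) (a i) = 1
  refl : ∀ i j, t i (a j) = a (2 * i - j)

variable {a : ℤ → V} {t : ℤ → V ≃ₗ[ℝ] V}

/-- The vectors `a i · a j - (a i + a j) / 32`. -/
noncomputable def ss (mul : V →ₗ[ℝ] V →ₗ[ℝ] V) (a : ℤ → V) (i j : ℤ) : V :=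
  sv mul (a i) (a j)

/-- The reversed family. -/
lemma MajFam.rev (F : MajFam mul B a t) (c : ℤ) :
    MajFam mul B (fun i => a (c - i)) (fun i => t (c - i)) where
  pair i := F.pair (c - i)
  unit i := F.unit (c - i)
  refl i j := by
    show t (c - i) (a (c - j)) = a (c - (2 * i - j))
    rw [F.refl]
    congr 1
    ring

lemma MajFam.b_eq (F : MajFam mul B a t) (k : ℤ) {i j i' j' : ℤ} (hi : i' = 2 * k - i)
    (hj : j' = 2 * k - j) : B (a i') (a j') = B (a i) (a j) := by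
  subst hi hj
  rw [← F.refl, ← F.refl]
  exact (F.pair k).2.1 _ _

lemma MajFam.idem (F : MajFam mul B a t) (i : ℤ) : mul (a i) (a i) = a i :=
  Cfsg.Agent.Lib.Majorana.Basic.idem (F.pair i)

lemma MajFam.t_ss (F : MajFam mul B a t) (k i j : ℤ) :
    t k (ss mul a i j) = ss mul a (2 * k - i) (2 * k - j) := by
  unfold ss sv
  simp only [map_sub, map_smul, map_add]
  rw [(F.pair k).1, F.refl, F.refl]

lemma ss_comm (hV : IsMajoranaAmbient mul B) (i j : ℤ) : ss mul a i j = ss mul a j i :=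
  sv_comm hV _ _

lemma mul_eq_ss (i j : ℤ) : mul (a i) (a j) = ss mul a i j + (1 / 32 : ℝ) • (a i + a j) := by
  unfold ss sv
  abel

lemma MajFam.data (hV : IsMajoranaAmbient mul B) (F : MajFam mul B a t) (i j : ℤ) :
    ∃ e0 e4 : V, AxisData mul B (t i) (a i) (a j) e0 e4 :=
  exists_axisData hV (F.pair i) (F.unit i) (a j)

lemma MajFam.ss_refl (hV : IsMajoranaAmbient mul B) (F : MajFam mul B a t) (i j : ℤ) :
    ss mul a i (2 * i - j) = ss mul a i j := by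
  obtain ⟨e0, e4, hd⟩ := F.data hV i j
  have := hd.sv_mu
  rwa [F.refl] at this

lemma MajFam.mul_ss (hV : IsMajoranaAmbient mul B) (F : MajFam mul B a t) (i j : ℤ) :
    mul (a i) (ss mul a i j) = (7 / 32 : ℝ) • ss mul a i j +
      (7 / 2048 : ℝ) • (a j + a (2 * i - j)) + ((768 * B (a i) (a j) - 25) / 1024 : ℝ) • a i := by
  obtain ⟨e0, e4, hd⟩ := F.data hV i j
  have := hd.mul_s
  rw [F.refl] at this
  unfold ss
  rw [this]
  module

lemma mul_expand (hV : IsMajoranaAmbient mul B) (S U c : V) (x1 x2 x3 y1 y2 y3 : ℝ) :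
    mul (x1 • S + x2 • U + x3 • c) (y1 • S + y2 • U + y3 • c) =
      (x1 * y1) • mul S S + (x1 * y2 + x2 * y1) • mul S U + (x2 * y2) • mul U U +
      (x1 * y3 + x3 * y1) • mul c S + (x2 * y3 + x3 * y2) • mul c U + (x3 * y3) • mul c c := by
  simp only [map_add, map_smul, LinearMap.add_apply, LinearMap.smul_apply]
  rw [comm_mul hV U S, comm_mul hV S c, comm_mul hV U c]
  module

/-- The main computation: the product of `a₀` with `s_{1,-1}` and the square of `s = s_{0,1}`. -/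
theorem MajFam.main (hV : IsMajoranaAmbient mul B) (F : MajFam mul B a t) :
    mul (a 0) (ss mul a 1 (-1)) =
      (B (a 0) (a 1) / 6 - 19 / 3072 : ℝ) • (a (-1) + a 1) + (7 / 6144 : ℝ) • (a (-2) + a 2) +
      (-(32 / 3) * B (a 0) (a 1) ^ 2 + 5 / 3 * B (a 0) (a 1) - B (a 1) (a (-1)) / 24 - 127 / 3072 : ℝ)
        • a 0 +
      (32 / 3 * B (a 0) (a 1) - 19 / 48 : ℝ) • ss mul a 0 1 + (7 / 96 : ℝ) • ss mul a 0 2 ∧
    mul (ss mul a 0 1) (ss mul a 0 1) =
      (49 / 768 * B (a 0) (a 1) - 245 / 196608 : ℝ) • (a (-1) + a 1) +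
      (49 / 196608 : ℝ) • (a (-2) + a 2) +
      (7 / 6 * B (a 0) (a 1) ^ 2 - 7 / 384 * B (a 0) (a 1) + 7 / 1536 * B (a 1) (a (-1)) -
        7 / 98304 : ℝ) • a 0 +
      (-(5 / 12) * B (a 0) (a 1) - 13 / 1536 : ℝ) • ss mul a 0 1 +
      (-(7 / 1536) : ℝ) • ss mul a 0 2 + (7 / 2048 : ℝ) • ss mul a 1 (-1) := by
  obtain ⟨e0, e4, hd⟩ := F.data hV 0 1
  have hm1 : t 0 (a 1) = a (-1) := by
    rw [F.refl]
    norm_num
  have hdS : sv mul (a 0) (a 1) = ss mul a 0 1 := rfl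
  have hAS := hd.mul_s
  have hAU := hd.mul_u
  have he0 := hd.e0_eq
  have he4 := hd.e4_eq
  rw [hm1, hdS] at hAS hAU he0 he4
  set l := B (a 0) (a 1) with hl
  set n := B (a 1) (a (-1)) with hn
  set S := ss mul a 0 1 with hS
  set U : V := (1 / 2 : ℝ) • (a 1 + a (-1)) with hU
  set s2 := ss mul a 0 2 with hs2
  set sp := ss mul a 1 (-1) with hsp
  have hid : mul (a 0) (a 0) = a 0 := F.idem 0
  obtain ⟨f1, f2, f3⟩ := fusion_facts hV (F.pair 0) (F.unit 0) hd.h0 hd.h4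
  have hN : B e4 e4 = 4 * l * (1 - l) - (1 - n) / 16 := by
    have := norm_e4 hV (F.pair 0) (F.unit 0) hd (F.idem 1) (F.unit 1)
    rw [hm1] at this
    exact this
  -- second products of `a 0`
  have hA2S : mul (a 0) (mul (a 0) S) = (7 / 32 : ℝ) • ((7 / 32 : ℝ) • S + (7 / 1024 : ℝ) • U +
      ((768 * l - 25) / 1024 : ℝ) • a 0) + (7 / 1024 : ℝ) • (S + (1 / 32 : ℝ) • (a 0 + U)) +
      ((768 * l - 25) / 1024 : ℝ) • a 0 := by
    rw [hAS]
    simp only [map_add, map_smul, hid]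
    rw [hAS, hAU]
  have hA2U : mul (a 0) (mul (a 0) U) = ((7 / 32 : ℝ) • S + (7 / 1024 : ℝ) • U +
      ((768 * l - 25) / 1024 : ℝ) • a 0) + (1 / 32 : ℝ) • (a 0 + (S + (1 / 32 : ℝ) • (a 0 + U))) := by
    rw [hAU]
    simp only [map_add, map_smul, hid]
    rw [hAS, hAU]
  -- the products with the neighbours
  have hS1 : ss mul a 1 0 = S := ss_comm hV 1 0
  have hss01 : ss mul a 0 (-1) = S := by
    have := F.ss_refl hV 0 1
    norm_num at this
    exact this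
  have hSm1 : ss mul a (-1) 0 = S := by
    rw [ss_comm hV (-1) 0, hss01]
  have hb1 : B (a 1) (a 0) = l := B_comm hV _ _
  have hbm1 : B (a (-1)) (a 0) = l := by
    have := F.b_eq (i := 0) (j := 1) (i' := 0) (j' := -1) 0 (by norm_num) (by norm_num)
    rw [B_comm hV]
    exact this
  have hm11 : mul (a 1) S = (7 / 32 : ℝ) • S + (7 / 2048 : ℝ) • (a 0 + a 2) +
      ((768 * l - 25) / 1024 : ℝ) • a 1 := by
    have := F.mul_ss hV 1 0
    rw [hS1, hb1] at this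
    rw [this]
    norm_num
  have hm1m : mul (a (-1)) S = (7 / 32 : ℝ) • S + (7 / 2048 : ℝ) • (a 0 + a (-2)) +
      ((768 * l - 25) / 1024 : ℝ) • a (-1) := by
    have := F.mul_ss hV (-1) 0
    rw [hSm1, hbm1] at this
    rw [this]
    norm_num
  have hQ : mul S U = (1 / 2 : ℝ) • (((7 / 32 : ℝ) • S + (7 / 2048 : ℝ) • (a 0 + a 2) +
      ((768 * l - 25) / 1024 : ℝ) • a 1) + ((7 / 32 : ℝ) • S + (7 / 2048 : ℝ) • (a 0 + a (-2)) +
      ((768 * l - 25) / 1024 : ℝ) • a (-1))) := by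
    rw [hU]
    simp only [map_add, map_smul]
    rw [comm_mul hV S (a 1), comm_mul hV S (a (-1)), hm11, hm1m]
  have hs2' : ss mul a 0 (-2) = s2 := by
    have := F.ss_refl hV 0 2
    norm_num at this
    exact this
  have h02 : mul (a 0) (a 2) = s2 + (1 / 32 : ℝ) • (a 0 + a 2) := mul_eq_ss 0 2
  have h0m2 : mul (a 0) (a (-2)) = s2 + (1 / 32 : ℝ) • (a 0 + a (-2)) := by
    rw [mul_eq_ss, hs2']
  have h01 : mul (a 0) (a 1) = S + (1 / 32 : ℝ) • (a 0 + a 1) := mul_eq_ss 0 1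
  have h0m1 : mul (a 0) (a (-1)) = S + (1 / 32 : ℝ) • (a 0 + a (-1)) := by
    rw [mul_eq_ss, hss01]
  have hAQ : mul (a 0) (mul S U) = (1 / 2 : ℝ) • (((7 / 32 : ℝ) • ((7 / 32 : ℝ) • S +
      (7 / 1024 : ℝ) • U + ((768 * l - 25) / 1024 : ℝ) • a 0) +
      (7 / 2048 : ℝ) • (a 0 + (s2 + (1 / 32 : ℝ) • (a 0 + a 2))) +
      ((768 * l - 25) / 1024 : ℝ) • (S + (1 / 32 : ℝ) • (a 0 + a 1))) +
      ((7 / 32 : ℝ) • ((7 / 32 : ℝ) • S + (7 / 1024 : ℝ) • U + ((768 * l - 25) / 1024 : ℝ) • a 0) +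
      (7 / 2048 : ℝ) • (a 0 + (s2 + (1 / 32 : ℝ) • (a 0 + a (-2)))) +
      ((768 * l - 25) / 1024 : ℝ) • (S + (1 / 32 : ℝ) • (a 0 + a (-1))))) := by
    rw [hQ]
    simp only [map_add, map_smul, hid]
    rw [hAS, h02, h0m2, h01, h0m1]
  have hW : mul U U = (17 / 32 : ℝ) • U + (1 / 2 : ℝ) • sp := by
    rw [hU]
    simp only [map_add, map_smul, LinearMap.add_apply, LinearMap.smul_apply]
    rw [comm_mul hV (a (-1)) (a 1), F.idem 1, F.idem (-1), mul_eq_ss 1 (-1)]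
    module
  have hAW : mul (a 0) (mul U U) = (17 / 32 : ℝ) • (S + (1 / 32 : ℝ) • (a 0 + U)) +
      (1 / 2 : ℝ) • mul (a 0) sp := by
    rw [hW]
    simp only [map_add, map_smul]
    rw [hAU]
  -- expansions of the fusion identities
  rw [he0, mul_expand hV] at f1
  rw [hN, he4, mul_expand hV] at f2
  rw [he0, he4, mul_expand hV] at f3
  simp only [map_add, map_smul, hid] at f1 f2
  rw [hA2S, hA2U, hAQ, hAW] at f1 f2
  have hsp_eq : mul (a 0) sp =
      (l / 6 - 19 / 3072 : ℝ) • (a (-1) + a 1) + (7 / 6144 : ℝ) • (a (-2) + a 2) +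
      (-(32 / 3) * l ^ 2 + 5 / 3 * l - n / 24 - 127 / 3072 : ℝ) • a 0 +
      (32 / 3 * l - 19 / 48 : ℝ) • S + (7 / 96 : ℝ) • s2 := by
    rw [hU] at f1 f2
    linear_combination (norm := module) (8 / 3 : ℝ) • f1 - (8 / 3 : ℝ) • f2
  refine ⟨hsp_eq, ?_⟩
  simp only [map_add, map_smul, hid] at f3
  rw [hA2S, hA2U, hAQ, hAW, hAS, hAU, hQ, hW, hsp_eq] at f3
  rw [hsp_eq] at f1
  rw [hU] at f1 f3
  linear_combination (norm := module) (1 / 4 : ℝ) • f3 + (1 / 4 : ℝ) • f1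

end Cfsg.Agent.Lib.Majorana.Fam
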