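import Cfsg.Agent.Lib.Majorana.Fam

/-!
# Inner products of the axes in the sequence

All inner products of a reflection-closed family of axes reduce to `B a₀ a₁`, `B a₀ a₂`, ... ; the
relations among them obtained from the main computation of `Fam.lean`.
-/

set_option autoImplicit false

namespace Cfsg.Agent.Lib.Majorana.Sakuma

open Cfsg.Axial Cfsg.Agent.Lib.Majorana.Basic Cfsg.Agent.Lib.Majorana.Axis
  Cfsg.Agent.Lib.Majorana.Fam

variable {V : Type*} [AddCommGroup V] [Module ℝ V] {mul : V →ₗ[ℝ] V →ₗ[ℝ] V}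
  {B : LinearMap.BilinForm ℝ V} {a : ℤ → V} {t : ℤ → V ≃ₗ[ℝ] V}

/-- The inner products of the axes in terms of a few of them. -/
structure Table (B : LinearMap.BilinForm ℝ V) (a : ℤ → V) : Prop where
  m3_m2 : B (a (-3)) (a (-2)) = B (a 0) (a 1)
  m3_m1 : B (a (-3)) (a (-1)) = B (a 1) (a (-1))
  m3_z : B (a (-3)) (a 0) = B (a 0) (a 3)
  m3_p1 : B (a (-3)) (a 1) = B (a 1) (a (-3))
  m3_p3 : B (a (-3)) (a 3) = B (a 3) (a (-3))
  m2_m3 : B (a (-2)) (a (-3)) = B (a 0) (a 1)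
  m2_m1 : B (a (-2)) (a (-1)) = B (a 0) (a 1)
  m2_z : B (a (-2)) (a 0) = B (a 0) (a 2)
  m2_p1 : B (a (-2)) (a 1) = B (a 0) (a 3)
  m2_p3 : B (a (-2)) (a 3) = B (a (-3)) (a 2)
  m2_p4 : B (a (-2)) (a 4) = B (a 2) (a 8)
  m1_m3 : B (a (-1)) (a (-3)) = B (a 1) (a (-1))
  m1_m2 : B (a (-1)) (a (-2)) = B (a 0) (a 1)
  m1_z : B (a (-1)) (a 0) = B (a 0) (a 1)
  m1_p1 : B (a (-1)) (a 1) = B (a 1) (a (-1))
  m1_p2 : B (a (-1)) (a 2) = B (a 0) (a 3)
  m1_p3 : B (a (-1)) (a 3) = B (a 1) (a (-3))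
  m1_p4 : B (a (-1)) (a 4) = B (a (-3)) (a 2)
  z_m3 : B (a 0) (a (-3)) = B (a 0) (a 3)
  z_m2 : B (a 0) (a (-2)) = B (a 0) (a 2)
  z_m1 : B (a 0) (a (-1)) = B (a 0) (a 1)
  z_p4 : B (a 0) (a 4) = B (a (-2)) (a 2)
  p1_m2 : B (a 1) (a (-2)) = B (a 0) (a 3)
  p1_z : B (a 1) (a 0) = B (a 0) (a 1)
  p1_p2 : B (a 1) (a 2) = B (a 0) (a 1)
  p1_p3 : B (a 1) (a 3) = B (a 1) (a (-1))
  p1_p4 : B (a 1) (a 4) = B (a 0) (a 3)
  p2_m3 : B (a 2) (a (-3)) = B (a (-3)) (a 2)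
  p2_m2 : B (a 2) (a (-2)) = B (a (-2)) (a 2)
  p2_m1 : B (a 2) (a (-1)) = B (a 0) (a 3)
  p2_z : B (a 2) (a 0) = B (a 0) (a 2)
  p2_p1 : B (a 2) (a 1) = B (a 0) (a 1)
  p2_p3 : B (a 2) (a 3) = B (a 0) (a 1)
  p2_p4 : B (a 2) (a 4) = B (a 0) (a 2)
  p3_m2 : B (a 3) (a (-2)) = B (a (-3)) (a 2)
  p3_m1 : B (a 3) (a (-1)) = B (a 1) (a (-3))
  p3_z : B (a 3) (a 0) = B (a 0) (a 3)
  p3_p1 : B (a 3) (a 1) = B (a 1) (a (-1))
  p3_p2 : B (a 3) (a 2) = B (a 0) (a 1)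
  p3_p4 : B (a 3) (a 4) = B (a 0) (a 1)
  p4_m2 : B (a 4) (a (-2)) = B (a 8) (a 2)
  p4_m1 : B (a 4) (a (-1)) = B (a (-3)) (a 2)
  p4_z : B (a 4) (a 0) = B (a (-2)) (a 2)
  p4_p1 : B (a 4) (a 1) = B (a 0) (a 3)
  p4_p2 : B (a 4) (a 2) = B (a 0) (a 2)
  p4_p3 : B (a 4) (a 3) = B (a 0) (a 1)

lemma table (hV : IsMajoranaAmbient mul B) (F : MajFam mul B a t) : Table B a where
  m3_m2 := ((B_comm hV (a (-3)) (a (-2)))).trans (F.b_eq (i := 0) (j := 1) (i' := (-2)) (j' := (-3)) (-1) (by norm_num) (by norm_num))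
  m3_m1 := (F.b_eq (i := 1) (j := (-1)) (i' := (-3)) (j' := (-1)) (-1) (by norm_num) (by norm_num))
  m3_z := ((B_comm hV (a (-3)) (a 0))).trans (F.b_eq (i := 0) (j := 3) (i' := 0) (j' := (-3)) 0 (by norm_num) (by norm_num))
  m3_p1 := (B_comm hV (a (-3)) (a 1))
  m3_p3 := (B_comm hV (a (-3)) (a 3))
  m2_m3 := (F.b_eq (i := 0) (j := 1) (i' := (-2)) (j' := (-3)) (-1) (by norm_num) (by norm_num))
  m2_m1 := ((F.b_eq (i := (-6)) (j := (-7)) (i' := (-2)) (j' := (-1)) (-4) (by norm_num) (by norm_num))).trans (F.b_eq (i := 0) (j := 1) (i' := (-6)) (j' := (-7)) (-3) (by norm_num) (by norm_num))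
  m2_z := ((B_comm hV (a (-2)) (a 0))).trans (F.b_eq (i := 0) (j := 2) (i' := 0) (j' := (-2)) 0 (by norm_num) (by norm_num))
  m2_p1 := ((F.b_eq (i := (-4)) (j := (-7)) (i' := (-2)) (j' := 1) (-3) (by norm_num) (by norm_num))).trans (F.b_eq (i := 0) (j := 3) (i' := (-4)) (j' := (-7)) (-2) (by norm_num) (by norm_num))
  m2_p3 := ((B_comm hV (a (-2)) (a 3))).trans (F.b_eq (i := (-3)) (j := 2) (i' := 3) (j' := (-2)) 0 (by norm_num) (by norm_num))
  m2_p4 := ((B_comm hV (a (-2)) (a 4))).trans (F.b_eq (i := 2) (j := 8) (i' := 4) (j' := (-2)) 3 (by norm_num) (by norm_num))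
  m1_m3 := ((B_comm hV (a (-1)) (a (-3)))).trans (F.b_eq (i := 1) (j := (-1)) (i' := (-3)) (j' := (-1)) (-1) (by norm_num) (by norm_num))
  m1_m2 := (((B_comm hV (a (-1)) (a (-2)))).trans (F.b_eq (i := (-6)) (j := (-7)) (i' := (-2)) (j' := (-1)) (-4) (by norm_num) (by norm_num))).trans (F.b_eq (i := 0) (j := 1) (i' := (-6)) (j' := (-7)) (-3) (by norm_num) (by norm_num))
  m1_z := ((B_comm hV (a (-1)) (a 0))).trans (F.b_eq (i := 0) (j := 1) (i' := 0) (j' := (-1)) 0 (by norm_num) (by norm_num))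
  m1_p1 := (B_comm hV (a (-1)) (a 1))
  m1_p2 := ((B_comm hV (a (-1)) (a 2))).trans (F.b_eq (i := 0) (j := 3) (i' := 2) (j' := (-1)) 1 (by norm_num) (by norm_num))
  m1_p3 := (F.b_eq (i := 1) (j := (-3)) (i' := (-1)) (j' := 3) 0 (by norm_num) (by norm_num))
  m1_p4 := ((F.b_eq (i := (-3)) (j := (-8)) (i' := (-1)) (j' := 4) (-2) (by norm_num) (by norm_num))).trans (F.b_eq (i := (-3)) (j := 2) (i' := (-3)) (j' := (-8)) (-3) (by norm_num) (by norm_num))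
  z_m3 := (F.b_eq (i := 0) (j := 3) (i' := 0) (j' := (-3)) 0 (by norm_num) (by norm_num))
  z_m2 := (F.b_eq (i := 0) (j := 2) (i' := 0) (j' := (-2)) 0 (by norm_num) (by norm_num))
  z_m1 := (F.b_eq (i := 0) (j := 1) (i' := 0) (j' := (-1)) 0 (by norm_num) (by norm_num))
  z_p4 := ((B_comm hV (a 0) (a 4))).trans (F.b_eq (i := (-2)) (j := 2) (i' := 4) (j' := 0) 1 (by norm_num) (by norm_num))
  p1_m2 := (((B_comm hV (a 1) (a (-2)))).trans (F.b_eq (i := (-4)) (j := (-7)) (i' := (-2)) (j' := 1) (-3) (by norm_num) (by norm_num))).trans (F.b_eq (i := 0) (j := 3) (i' := (-4)) (j' := (-7)) (-2) (by norm_num) (by norm_num))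
  p1_z := (B_comm hV (a 1) (a 0))
  p1_p2 := ((B_comm hV (a 1) (a 2))).trans (F.b_eq (i := 0) (j := 1) (i' := 2) (j' := 1) 1 (by norm_num) (by norm_num))
  p1_p3 := (F.b_eq (i := 1) (j := (-1)) (i' := 1) (j' := 3) 1 (by norm_num) (by norm_num))
  p1_p4 := ((B_comm hV (a 1) (a 4))).trans (F.b_eq (i := 0) (j := 3) (i' := 4) (j' := 1) 2 (by norm_num) (by norm_num))
  p2_m3 := (B_comm hV (a 2) (a (-3)))
  p2_m2 := (B_comm hV (a 2) (a (-2)))
  p2_m1 := (F.b_eq (i := 0) (j := 3) (i' := 2) (j' := (-1)) 1 (by norm_num) (by norm_num))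
  p2_z := (B_comm hV (a 2) (a 0))
  p2_p1 := (F.b_eq (i := 0) (j := 1) (i' := 2) (j' := 1) 1 (by norm_num) (by norm_num))
  p2_p3 := ((F.b_eq (i := (-6)) (j := (-7)) (i' := 2) (j' := 3) (-2) (by norm_num) (by norm_num))).trans (F.b_eq (i := 0) (j := 1) (i' := (-6)) (j' := (-7)) (-3) (by norm_num) (by norm_num))
  p2_p4 := ((B_comm hV (a 2) (a 4))).trans (F.b_eq (i := 0) (j := 2) (i' := 4) (j' := 2) 2 (by norm_num) (by norm_num))
  p3_m2 := (F.b_eq (i := (-3)) (j := 2) (i' := 3) (j' := (-2)) 0 (by norm_num) (by norm_num))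
  p3_m1 := ((B_comm hV (a 3) (a (-1)))).trans (F.b_eq (i := 1) (j := (-3)) (i' := (-1)) (j' := 3) 0 (by norm_num) (by norm_num))
  p3_z := (B_comm hV (a 3) (a 0))
  p3_p1 := ((B_comm hV (a 3) (a 1))).trans (F.b_eq (i := 1) (j := (-1)) (i' := 1) (j' := 3) 1 (by norm_num) (by norm_num))
  p3_p2 := (((B_comm hV (a 3) (a 2))).trans (F.b_eq (i := (-6)) (j := (-7)) (i' := 2) (j' := 3) (-2) (by norm_num) (by norm_num))).trans (F.b_eq (i := 0) (j := 1) (i' := (-6)) (j' := (-7)) (-3) (by norm_num) (by norm_num))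
  p3_p4 := ((B_comm hV (a 3) (a 4))).trans (F.b_eq (i := 0) (j := 1) (i' := 4) (j' := 3) 2 (by norm_num) (by norm_num))
  p4_m2 := ((B_comm hV (a 4) (a (-2)))).trans (F.b_eq (i := 8) (j := 2) (i' := (-2)) (j' := 4) 3 (by norm_num) (by norm_num))
  p4_m1 := (((B_comm hV (a 4) (a (-1)))).trans (F.b_eq (i := (-3)) (j := (-8)) (i' := (-1)) (j' := 4) (-2) (by norm_num) (by norm_num))).trans (F.b_eq (i := (-3)) (j := 2) (i' := (-3)) (j' := (-8)) (-3) (by norm_num) (by norm_num))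
  p4_z := (F.b_eq (i := (-2)) (j := 2) (i' := 4) (j' := 0) 1 (by norm_num) (by norm_num))
  p4_p1 := (F.b_eq (i := 0) (j := 3) (i' := 4) (j' := 1) 2 (by norm_num) (by norm_num))
  p4_p2 := (F.b_eq (i := 0) (j := 2) (i' := 4) (j' := 2) 2 (by norm_num) (by norm_num))
  p4_p3 := (F.b_eq (i := 0) (j := 1) (i' := 4) (j' := 3) 2 (by norm_num) (by norm_num))

lemma B_fix (F : MajFam mul B a t) {c : ℤ} {x : V} (hx : t c x = x) (j j' : ℤ)
    (h : j' = 2 * c - j) : B x (a j') = B x (a j) := by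
  subst h
  rw [← F.refl]
  conv_lhs => rw [← hx]
  exact (F.pair c).2.1 _ _

/-- Invariant vectors have inner products with the axes depending on the parity of the index only. -/
structure DTable (B : LinearMap.BilinForm ℝ V) (a : ℤ → V) (x : V) : Prop where
  p2 : B x (a 2) = B x (a 0)
  m2 : B x (a (-2)) = B x (a 0)
  p4 : B x (a 4) = B x (a 0)
  m1 : B x (a (-1)) = B x (a 1)
  p3 : B x (a 3) = B x (a 1)
  m3 : B x (a (-3)) = B x (a 1)

lemma dtable (F : MajFam mul B a t) {x : V} (h0 : t 0 x = x) (h1 : t 1 x = x) : DTable B a x := by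
  have p2 : B x (a 2) = B x (a 0) := B_fix F h1 0 2 (by norm_num)
  have m2 : B x (a (-2)) = B x (a 2) := B_fix F h0 2 (-2) (by norm_num)
  have m1 : B x (a (-1)) = B x (a 1) := B_fix F h0 1 (-1) (by norm_num)
  have p3 : B x (a 3) = B x (a (-1)) := B_fix F h1 (-1) 3 (by norm_num)
  have m3 : B x (a (-3)) = B x (a 3) := B_fix F h0 3 (-3) (by norm_num)
  have p4 : B x (a 4) = B x (a (-2)) := B_fix F h1 (-2) 4 (by norm_num)
  exact ⟨p2, m2.trans p2, p4.trans (m2.trans p2), m1, p3.trans m1, m3.trans (p3.trans m1)⟩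

lemma S_t0 (hV : IsMajoranaAmbient mul B) (F : MajFam mul B a t) :
    t 0 (ss mul a 0 1) = ss mul a 0 1 := by
  rw [F.t_ss]
  have := F.ss_refl hV 0 1
  simpa using this

lemma S_t1 (hV : IsMajoranaAmbient mul B) (F : MajFam mul B a t) :
    t 1 (ss mul a 0 1) = ss mul a 0 1 := by
  rw [F.t_ss]
  have := F.ss_refl hV 1 0
  norm_num at this ⊢
  rw [ss_comm hV 2 1, this, ss_comm hV 1 0]

lemma s2_t0 (hV : IsMajoranaAmbient mul B) (F : MajFam mul B a t) :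
    t 0 (ss mul a 0 2) = ss mul a 0 2 := by
  rw [F.t_ss]
  have := F.ss_refl hV 0 2
  simpa using this

lemma s2_t1 (hV : IsMajoranaAmbient mul B) (F : MajFam mul B a t) :
    t 1 (ss mul a 0 2) = ss mul a 0 2 := by
  rw [F.t_ss]
  norm_num
  rw [ss_comm hV 2 0]

lemma sp_t0 (hV : IsMajoranaAmbient mul B) (F : MajFam mul B a t) :
    t 0 (ss mul a 1 (-1)) = ss mul a 1 (-1) := by
  rw [F.t_ss]
  norm_num
  rw [ss_comm hV (-1) 1]

lemma sp_t1 (hV : IsMajoranaAmbient mul B) (F : MajFam mul B a t) :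
    t 1 (ss mul a 1 (-1)) = ss mul a 1 (-1) := by
  rw [F.t_ss]
  have := F.ss_refl hV 1 (-1)
  norm_num at this ⊢
  exact this

lemma B_mul_right (hV : IsMajoranaAmbient mul B) (F : MajFam mul B a t) (i j : ℤ) :
    B (mul (a i) (a j)) (a i) = B (a i) (a j) := by
  rw [comm_mul hV, B_assoc hV, F.idem, B_comm hV]

lemma B_ss_self (hV : IsMajoranaAmbient mul B) (F : MajFam mul B a t) (i j : ℤ) :
    B (ss mul a i j) (a i) = (31 * B (a i) (a j) - 1) / 32 := by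
  unfold ss sv
  simp only [map_sub, map_add, map_smul, LinearMap.sub_apply, LinearMap.add_apply,
    LinearMap.smul_apply, smul_eq_mul]
  rw [B_mul_right hV F, F.unit, B_comm hV (a j) (a i)]
  ring

/-- The pairing of `s_{i,j}` with a third axis. -/
lemma B_ss_other (hV : IsMajoranaAmbient mul B) (i j k : ℤ) :
    B (ss mul a i j) (a k) = B (a i) (mul (a j) (a k)) -
      (B (a i) (a k) + B (a j) (a k)) / 32 := by
  unfold ss sv
  simp only [map_sub, map_add, map_smul, LinearMap.sub_apply, LinearMap.add_apply,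
    LinearMap.smul_apply, smul_eq_mul]
  rw [B_assoc hV]
  ring

/-- Values of the invariant vectors on `a₀` and `a₁`. -/
theorem base_values (hV : IsMajoranaAmbient mul B) (F : MajFam mul B a t) :
    B (ss mul a 0 1) (a 0) = (31 * B (a 0) (a 1) - 1) / 32 ∧
    B (ss mul a 0 1) (a 1) = (31 * B (a 0) (a 1) - 1) / 32 ∧
    B (ss mul a 0 2) (a 0) = (31 * B (a 0) (a 2) - 1) / 32 ∧
    B (ss mul a 0 2) (a 1) = (30 * B (a 0) (a 1) - 1 + B (a 0) (a 2)) / 32 ∧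
    B (ss mul a 1 (-1)) (a 1) = (31 * B (a 1) (a (-1)) - 1) / 32 ∧
    B (ss mul a 1 (-1)) (a 0) = (30 * B (a 0) (a 1) - 1 + B (a 1) (a (-1))) / 32 := by
  have T := table hV F
  have S0 : B (ss mul a 0 1) (a 0) = (31 * B (a 0) (a 1) - 1) / 32 := B_ss_self hV F 0 1
  have S1 : B (ss mul a 0 1) (a 1) = (31 * B (a 0) (a 1) - 1) / 32 := by
    rw [ss_comm hV 0 1, B_ss_self hV F 1 0, T.p1_z]
  have s2a0 : B (ss mul a 0 2) (a 0) = (31 * B (a 0) (a 2) - 1) / 32 := B_ss_self hV F 0 2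
  have spa1 : B (ss mul a 1 (-1)) (a 1) = (31 * B (a 1) (a (-1)) - 1) / 32 := B_ss_self hV F 1 (-1)
  have h21 : mul (a 2) (a 1) = ss mul a 0 1 + (1 / 32 : ℝ) • (a 2 + a 1) := by
    rw [mul_eq_ss 2 1, ss_comm hV 2 1]
    have := F.ss_refl hV 1 0
    norm_num at this
    rw [this, ss_comm hV 1 0]
  have hm10 : mul (a (-1)) (a 0) = ss mul a 0 1 + (1 / 32 : ℝ) • (a (-1) + a 0) := by
    rw [mul_eq_ss (-1) 0, ss_comm hV (-1) 0]
    have := F.ss_refl hV 0 1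
    norm_num at this
    rw [this]
  have s2a1 : B (ss mul a 0 2) (a 1) = (30 * B (a 0) (a 1) - 1 + B (a 0) (a 2)) / 32 := by
    rw [B_ss_other hV, h21]
    simp only [map_add, map_smul, smul_eq_mul]
    rw [B_comm hV (a 0) (ss mul a 0 1), S0, T.p2_p1]
    ring
  have spa0 : B (ss mul a 1 (-1)) (a 0) = (30 * B (a 0) (a 1) - 1 + B (a 1) (a (-1))) / 32 := by
    rw [B_ss_other hV, hm10]
    simp only [map_add, map_smul, smul_eq_mul]
    rw [B_comm hV (a 1) (ss mul a 0 1), S1, T.p1_z, T.m1_z]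
    ring
  exact ⟨S0, S1, s2a0, s2a1, spa1, spa0⟩

/-- First relations. -/
theorem first_relations (hV : IsMajoranaAmbient mul B) (F : MajFam mul B a t) :
    B (a 1) (a (-1)) = B (a 0) (a 2) ∧
    B (a 0) (a 3) = (-32768 * B (a 0) (a 1) ^ 3 + 36864 * B (a 0) (a 1) ^ 2 -
      1920 * B (a 0) (a 1) * B (a 0) (a 2) - 2169 * B (a 0) (a 1) - 33 * B (a 0) (a 2) + 33) / 7 := by
  have T := table hV F
  obtain ⟨hi, -⟩ := F.main hV
  obtain ⟨S0, S1, s2a0, s2a1, spa1, spa0⟩ := base_values hV F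
  have hmn : B (a 1) (a (-1)) = B (a 0) (a 2) := by
    have e : B (mul (a 0) (ss mul a 1 (-1))) (a 0) = B (ss mul a 1 (-1)) (a 0) := by
      rw [comm_mul hV, B_assoc hV, F.idem]
    rw [hi] at e
    simp only [map_add, map_smul, LinearMap.add_apply, LinearMap.smul_apply, smul_eq_mul, S0, s2a0,
      spa0, F.unit, T.m1_z, T.m2_z, T.p1_z, T.p2_z] at e
    linear_combination (-96 / 7 : ℝ) * e
  refine ⟨hmn, ?_⟩
  have h1sp : mul (a 1) (ss mul a 1 (-1)) = (7 / 32 : ℝ) • ss mul a 1 (-1) +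
      (7 / 2048 : ℝ) • (a (-1) + a 3) + ((768 * B (a 1) (a (-1)) - 25) / 1024 : ℝ) • a 1 :=
    F.mul_ss hV 1 (-1)
  have e : B (mul (a 0) (ss mul a 1 (-1))) (a 1) = B (a 0) (mul (a 1) (ss mul a 1 (-1))) := by
    rw [B_assoc hV, comm_mul hV (ss mul a 1 (-1)) (a 1)]
  rw [hi, h1sp] at e
  simp only [map_add, map_smul, LinearMap.add_apply, LinearMap.smul_apply, smul_eq_mul, S1, s2a1,
    F.unit, T.m1_p1, T.m2_p1, T.p2_p1] at e
  rw [B_comm hV (a 0) (ss mul a 1 (-1)), spa0, T.z_m1] at e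
  rw [hmn] at e
  linear_combination (-3072 / 7 : ℝ) * e


/-- Pairing of `s_{i,j}` with an arbitrary vector. -/
lemma B_ss_any (hV : IsMajoranaAmbient mul B) (i j : ℤ) (x : V) :
    B (ss mul a i j) x = B (a j) (mul (a i) x) - (B (a i) x + B (a j) x) / 32 := by
  unfold ss sv
  simp only [map_sub, map_add, map_smul, LinearMap.sub_apply, LinearMap.add_apply,
    LinearMap.smul_apply, smul_eq_mul]
  rw [comm_mul hV (a i) (a j), B_assoc hV]
  ring

/-- The relations among the inner products. -/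
theorem relations (hV : IsMajoranaAmbient mul B) (F : MajFam mul B a t) :
    ∃ l m tt gE gO h k : ℝ, l = B (a 0) (a 1) ∧ m = B (a 0) (a 2) ∧ tt = B (a 0) (a 3) ∧
      gE = B (a (-2)) (a 2) ∧ gO = B (a 1) (a (-3)) ∧ h = B (a (-3)) (a 2) ∧ k = B (a 3) (a (-3)) ∧
      tt = (-32768 * l ^ 3 + 36864 * l ^ 2 - 1920 * l * m - 2169 * l - 33 * m + 33) / 7 ∧
      gO = m - (5 - 256 * l) * (l - tt) - ((9 + 512 * l - 32768 * l ^ 2 - 128 * m) / 7) * (1 - m) ∧
      gE = gO ∧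
      h = l - (5 - 256 * l) * (1 - gE) - ((9 + 512 * l - 32768 * l ^ 2 - 128 * m) / 7) * (l - tt) ∧
      k = 1 - (5 - 256 * l) * (l - h) - ((9 + 512 * l - 32768 * l ^ 2 - 128 * m) / 7) * (m - gO) ∧
      2097152 * l ^ 4 - 2326528 * l ^ 3 + 40960 * l ^ 2 * m + 184320 * l ^ 2 + 8896 * l * m -
        4800 * l + 128 * m ^ 2 - 167 * m + 39 = 0 ∧
      (-47185920 * l ^ 3 - 108380160 * l ^ 2 + 1143360 * l + 8775) * m =
        12079595520 * l ^ 5 - 12740198400 * l ^ 4 + 491028480 * l ^ 3 + 16035840 * l ^ 2 -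
          884160 * l + 8775 := by
  have T := table hV F
  obtain ⟨hi, hii⟩ := F.main hV
  obtain ⟨hmn, ht⟩ := first_relations hV F
  obtain ⟨S0, S1, s2a0, s2a1, spa1, spa0⟩ := base_values hV F
  have DS := dtable F (S_t0 hV F) (S_t1 hV F)
  have D2 := dtable F (s2_t0 hV F) (s2_t1 hV F)
  have Dp := dtable F (sp_t0 hV F) (sp_t1 hV F)
  have hrev := (F.rev 1).main hV
  have hi' : mul (a 1) (ss mul a 0 2) =
      (B (a 1) (a 0) / 6 - 19 / 3072 : ℝ) • (a 2 + a 0) + (7 / 6144 : ℝ) • (a 3 + a (-1)) +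
      (-(32 / 3) * B (a 1) (a 0) ^ 2 + 5 / 3 * B (a 1) (a 0) - B (a 0) (a 2) / 24 - 127 / 3072 : ℝ)
        • a 1 +
      (32 / 3 * B (a 1) (a 0) - 19 / 48 : ℝ) • ss mul a 1 0 + (7 / 96 : ℝ) • ss mul a 1 (-1) :=
    hrev.1
  have hii' : mul (ss mul a 1 0) (ss mul a 1 0) =
      (49 / 768 * B (a 1) (a 0) - 245 / 196608 : ℝ) • (a 2 + a 0) +
      (49 / 196608 : ℝ) • (a 3 + a (-1)) +
      (7 / 6 * B (a 1) (a 0) ^ 2 - 7 / 384 * B (a 1) (a 0) + 7 / 1536 * B (a 0) (a 2) -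
        7 / 98304 : ℝ) • a 1 +
      (-(5 / 12) * B (a 1) (a 0) - 13 / 1536 : ℝ) • ss mul a 1 0 +
      (-(7 / 1536) : ℝ) • ss mul a 1 (-1) + (7 / 2048 : ℝ) • ss mul a 0 2 :=
    hrev.2
  rw [T.p1_z, ss_comm hV 1 0] at hi' hii'
  clear hrev
  rw [hmn] at hi hii spa1 spa0
  generalize hl : B (a 0) (a 1) = l at *
  generalize hm : B (a 0) (a 2) = m at *
  generalize htt : B (a 0) (a 3) = tt at *
  generalize hgE : B (a (-2)) (a 2) = gE at *
  generalize hgO : B (a 1) (a (-3)) = gO at *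
  generalize hh : B (a (-3)) (a 2) = h at *
  generalize hk : B (a 3) (a (-3)) = k at *
  -- the linear relation
  have hR : ss mul a 1 (-1) - ss mul a 0 2 = (1 / 32 : ℝ) • (a 3 - a (-2)) +
      (8 * l - 3 / 16 : ℝ) • (a 2 - a (-1)) -
      ((1024 * l ^ 2 - 72 * l + 4 * m) / 7 + 33 / 224 : ℝ) • (a 0 - a 1) := by
    linear_combination (norm := module) (6144 / 49 : ℝ) • hii' - (6144 / 49 : ℝ) • hii

  have r03 : t 0 (a 3) = a (-3) := F.refl 0 3
  have r0m2 : t 0 (a (-2)) = a 2 := F.refl 0 (-2)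
  have r02 : t 0 (a 2) = a (-2) := F.refl 0 2
  have r0m1 : t 0 (a (-1)) = a 1 := F.refl 0 (-1)
  have r00 : t 0 (a 0) = a 0 := F.refl 0 0
  have r01 : t 0 (a 1) = a (-1) := F.refl 0 1
  have r13 : t 1 (a 3) = a (-1) := F.refl 1 3
  have r1m2 : t 1 (a (-2)) = a 4 := F.refl 1 (-2)
  have r12 : t 1 (a 2) = a 0 := F.refl 1 2
  have r1m1 : t 1 (a (-1)) = a 3 := F.refl 1 (-1)
  have r10 : t 1 (a 0) = a 2 := F.refl 1 0
  have r11 : t 1 (a 1) = a 1 := F.refl 1 1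
  have hR0 : ss mul a 1 (-1) - ss mul a 0 2 = (1 / 32 : ℝ) • (a (-3) - a 2) +
      (8 * l - 3 / 16 : ℝ) • (a (-2) - a 1) -
      ((1024 * l ^ 2 - 72 * l + 4 * m) / 7 + 33 / 224 : ℝ) • (a 0 - a (-1)) := by
    have := congrArg (t 0) hR
    simpa only [map_sub, map_add, map_smul, sp_t0 hV F, s2_t0 hV F, r03, r0m2, r02, r0m1, r00, r01]
      using this
  have hR1 : ss mul a 1 (-1) - ss mul a 0 2 = (1 / 32 : ℝ) • (a (-1) - a 4) +
      (8 * l - 3 / 16 : ℝ) • (a 0 - a 3) -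
      ((1024 * l ^ 2 - 72 * l + 4 * m) / 7 + 33 / 224 : ℝ) • (a 2 - a 1) := by
    have := congrArg (t 1) hR
    simpa only [map_sub, map_add, map_smul, sp_t1 hV F, s2_t1 hV F, r13, r1m2, r12, r1m1, r10, r11]
      using this
  have Rec0 : a 3 - a (-3) = (5 - 256 * l : ℝ) • (a 2 - a (-2)) +
      ((9 + 512 * l - 32768 * l ^ 2 - 128 * m) / 7 : ℝ) • (a 1 - a (-1)) := by
    linear_combination (norm := module) (32 : ℝ) • hR0 - (32 : ℝ) • hR
  have Rec1 : a 4 - a (-2) = (5 - 256 * l : ℝ) • (a 3 - a (-1)) +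
      ((9 + 512 * l - 32768 * l ^ 2 - 128 * m) / 7 : ℝ) • (a 2 - a 0) := by
    linear_combination (norm := module) (32 : ℝ) • hR1 - (32 : ℝ) • hR
  -- pairings of the recurrences
  have pO := congrArg (fun x => B x (a 1)) Rec0
  have pE := congrArg (fun x => B x (a 2)) Rec1
  have pH := congrArg (fun x => B x (a 2)) Rec0
  have pK := congrArg (fun x => B x (a 3)) Rec0
  simp only [map_sub, map_add, map_smul, LinearMap.sub_apply, LinearMap.add_apply,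
    LinearMap.smul_apply, smul_eq_mul, F.unit, T.p3_p1, T.m3_p1, T.p2_p1, T.m2_p1, T.m1_p1,
    T.p4_p2, T.p3_p2, T.m1_p2, T.p1_p2, T.m3_p3, T.p2_p3, T.m2_p3, T.p1_p3, T.m1_p3,
    hl, hm, htt, hgE, hgO, hh, hk, hmn] at pO pE pH pK
  have hgO' : gO = m - (5 - 256 * l) * (l - tt) -
      ((9 + 512 * l - 32768 * l ^ 2 - 128 * m) / 7) * (1 - m) := by
    linear_combination -pO
  have hgE' : gE = gO := by
    rw [hgO']
    linear_combination -pE
  have hh' : h = l - (5 - 256 * l) * (1 - gE) -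
      ((9 + 512 * l - 32768 * l ^ 2 - 128 * m) / 7) * (l - tt) := by
    linear_combination -pH
  have hk' : k = 1 - (5 - 256 * l) * (l - h) -
      ((9 + 512 * l - 32768 * l ^ 2 - 128 * m) / 7) * (m - gO) := by
    linear_combination -pK
  -- the first polynomial relation: pair the relation with `s_{0,2}`
  have hc2 : ∀ j, B (a j) (ss mul a 0 2) = B (ss mul a 0 2) (a j) := fun j => B_comm hV _ _
  have hcS : ∀ j, B (a j) (ss mul a 0 1) = B (ss mul a 0 1) (a j) := fun j => B_comm hV _ _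
  have hcp : ∀ j, B (a j) (ss mul a 1 (-1)) = B (ss mul a 1 (-1)) (a j) := fun j => B_comm hV _ _
  have h0s2 : mul (a 0) (ss mul a 0 2) = (7 / 32 : ℝ) • ss mul a 0 2 +
      (7 / 2048 : ℝ) • (a 2 + a (-2)) + ((768 * m - 25) / 1024 : ℝ) • a 0 := by
    have := F.mul_ss hV 0 2
    rw [hm] at this
    exact this
  have e1 := congrArg (fun x => B x (ss mul a 0 2)) hR
  simp only [map_sub, map_add, map_smul, LinearMap.sub_apply, LinearMap.add_apply,
    LinearMap.smul_apply, smul_eq_mul] at e1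
  rw [B_ss_any hV 1 (-1) (ss mul a 0 2), B_ss_any hV 0 2 (ss mul a 0 2), hi', h0s2] at e1
  simp only [map_add, map_smul, smul_eq_mul, F.unit, hc2, hcS, hcp, D2.p2, D2.m2, D2.p3, D2.m1,
    DS.m1, Dp.m1, S0, S1, s2a0, s2a1, spa1, spa0, T.m1_p2, T.m1_z, T.m1_p3, T.m1_p1, T.p2_m2,
    T.p2_z, hl, hm, htt, hgE, hgO, hh, hk, hmn] at e1
  have hE : 2097152 * l ^ 4 - 2326528 * l ^ 3 + 40960 * l ^ 2 * m + 184320 * l ^ 2 + 8896 * l * m -
      4800 * l + 128 * m ^ 2 - 167 * m + 39 = 0 := by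
    subst hgE' hgO' ht
    linear_combination (-1792 / 3 : ℝ) * e1
  -- the second polynomial relation: multiply by `a₀` and pair with `a₃`
  have h0m2 : mul (a 0) (a (-2)) = ss mul a 0 2 + (1 / 32 : ℝ) • (a 0 + a (-2)) := by
    rw [mul_eq_ss]
    have := F.ss_refl hV 0 2
    norm_num at this
    rw [this]
  have h0m1 : mul (a 0) (a (-1)) = ss mul a 0 1 + (1 / 32 : ℝ) • (a 0 + a (-1)) := by
    rw [mul_eq_ss]
    have := F.ss_refl hV 0 1
    norm_num at this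
    rw [this]
  have h03 : B (mul (a 0) (a 3)) (a 3) = tt := by
    rw [B_assoc hV, F.idem, htt]
  have e2 := congrArg (fun x => B (mul (a 0) x) (a 3)) hR
  simp only [map_sub, map_add, map_smul, LinearMap.sub_apply, LinearMap.add_apply,
    LinearMap.smul_apply, smul_eq_mul] at e2
  rw [h03, hi, h0s2, h0m2, h0m1, mul_eq_ss 0 2, mul_eq_ss 0 1, F.idem 0] at e2
  simp only [map_add, map_smul, LinearMap.add_apply, LinearMap.smul_apply, smul_eq_mul, F.unit,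
    DS.p3, D2.p3, S1, s2a1, T.m1_p3, T.p1_p3, T.m2_p3, T.p2_p3, hl, hm, htt, hgE, hgO, hh, hk,
    hmn] at e2
  have hE2 : (-47185920 * l ^ 3 - 108380160 * l ^ 2 + 1143360 * l + 8775) * m =
      12079595520 * l ^ 5 - 12740198400 * l ^ 4 + 491028480 * l ^ 3 + 16035840 * l ^ 2 -
        884160 * l + 8775 := by
    have ehh := hh'
    rw [hgE', hgO', ht] at ehh
    rw [hgO', ht] at e2
    rw [ehh] at e2
    linear_combination (25088 : ℝ) * e2 - (25088 : ℝ) * (69 / 196 * l + 261 / 25088) * hE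
  exact ⟨l, m, tt, gE, gO, h, k, rfl, rfl, rfl, rfl, rfl, rfl, rfl,
    ht, hgO', hgE', hh', hk', hE, hE2⟩

end Cfsg.Agent.Lib.Majorana.Sakuma
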