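import Cfsg.Agent.Lib.Majorana.Sakuma

/-!
# From two Majorana pairs to the reflection-closed family of axes, and the final case analysis
-/

set_option autoImplicit false

namespace Cfsg.Agent.Lib.Majorana.Seq

open Cfsg.Axial Cfsg.Agent.Lib.Majorana.Basic Cfsg.Agent.Lib.Majorana.Axis
  Cfsg.Agent.Lib.Majorana.Fam Cfsg.Agent.Lib.Majorana.Sakuma

/-- The numerical core: the relations force one of six inner products to be `1`. -/
theorem algebra_core (l m tt gE gO h k : ℝ)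
    (ht : tt = (-32768 * l ^ 3 + 36864 * l ^ 2 - 1920 * l * m - 2169 * l - 33 * m + 33) / 7)
    (hgO : gO = m - (5 - 256 * l) * (l - tt) - ((9 + 512 * l - 32768 * l ^ 2 - 128 * m) / 7) * (1 - m))
    (hgE : gE = gO)
    (hh : h = l - (5 - 256 * l) * (1 - gE) - ((9 + 512 * l - 32768 * l ^ 2 - 128 * m) / 7) * (l - tt))
    (hk : k = 1 - (5 - 256 * l) * (l - h) - ((9 + 512 * l - 32768 * l ^ 2 - 128 * m) / 7) * (m - gO))
    (hE : 2097152 * l ^ 4 - 2326528 * l ^ 3 + 40960 * l ^ 2 * m + 184320 * l ^ 2 + 8896 * l * m -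
      4800 * l + 128 * m ^ 2 - 167 * m + 39 = 0)
    (hE2 : (-47185920 * l ^ 3 - 108380160 * l ^ 2 + 1143360 * l + 8775) * m =
      12079595520 * l ^ 5 - 12740198400 * l ^ 4 + 491028480 * l ^ 3 + 16035840 * l ^ 2 -
        884160 * l + 8775) :
    l = 1 ∨ m = 1 ∨ tt = 1 ∨ gO = 1 ∨ h = 1 ∨ k = 1 := by
  subst hgE
  by_cases hl : 64 * l - 1 = 0
  · have hl' : l = 1 / 64 := by linarith
    subst hl'
    have h2 : (8 * m - 1) * (64 * m - 1) = 0 := by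
      linear_combination 4 * hE
    rcases mul_eq_zero.mp h2 with h3 | h3
    · have hm : m = 1 / 8 := by linarith
      subst hm
      right; right; right; left
      rw [hgO, ht]
      norm_num
    · have hm : m = 1 / 64 := by linarith
      subst hm
      right; right; left
      rw [ht]
      norm_num
  · have hE2' : (-737280 * l ^ 2 - 1704960 * l - 8775) * m =
        188743680 * l ^ 4 - 196116480 * l ^ 3 + 4608000 * l ^ 2 + 322560 * l - 8775 := by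
      apply mul_left_cancel₀ hl
      linear_combination hE2
    have hU : l * (l - 1) * (8 * l - 1) * (256 * l - 13) * (32 * l - 1) * (128 * l - 3) *
        (256 * l - 5) = 0 := by
      have h0 : (-13964677282057420800 : ℝ) * (l ^ 7) + 17455846602571776000 * l ^ 6 -
          3787143086761574400 * l ^ 5 + 307172332693094400 * l ^ 4 - 11393286576537600 * l ^ 3 +
          195988178534400 * l ^ 2 - 1268047872000 * l = 0 := by
        linear_combination (-737280 * l ^ 2 - 1704960 * l - 8775) ^ 2 * hE -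
          (128 * ((-737280 * l ^ 2 - 1704960 * l - 8775) * m +
            (188743680 * l ^ 4 - 196116480 * l ^ 3 + 4608000 * l ^ 2 + 322560 * l - 8775)) +
            (-737280 * l ^ 2 - 1704960 * l - 8775) * (40960 * l ^ 2 + 8896 * l - 167)) * hE2'
      linear_combination (-2147483648 / 13964677282057420800 : ℝ) * h0
    have cases7 : l = 0 ∨ l = 1 ∨ l = 1 / 8 ∨ l = 13 / 256 ∨ l = 1 / 32 ∨ l = 3 / 128 ∨
        l = 5 / 256 := by
      rcases mul_eq_zero.mp hU with h1 | h1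
      · rcases mul_eq_zero.mp h1 with h1 | h1
        · rcases mul_eq_zero.mp h1 with h1 | h1
          · rcases mul_eq_zero.mp h1 with h1 | h1
            · rcases mul_eq_zero.mp h1 with h1 | h1
              · rcases mul_eq_zero.mp h1 with h1 | h1
                · exact Or.inl h1
                · exact Or.inr (Or.inl (by linarith))
              · exact Or.inr (Or.inr (Or.inl (by linarith)))
            · exact Or.inr (Or.inr (Or.inr (Or.inl (by linarith))))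
          · exact Or.inr (Or.inr (Or.inr (Or.inr (Or.inl (by linarith)))))
        · exact Or.inr (Or.inr (Or.inr (Or.inr (Or.inr (Or.inl (by linarith))))))
      · exact Or.inr (Or.inr (Or.inr (Or.inr (Or.inr (Or.inr (by linarith))))))
    rcases cases7 with h1 | h1 | h1 | h1 | h1 | h1 | h1
    · subst h1
      have hm : m = 1 := by linarith
      exact Or.inr (Or.inl hm)
    · exact Or.inl h1
    · subst h1
      have hm : m = 1 := by linarith
      exact Or.inr (Or.inl hm)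
    · subst h1
      have hm : m = 13 / 256 := by linarith
      subst hm
      right; right; left
      rw [ht]
      norm_num
    · subst h1
      have hm : m = 0 := by linarith
      subst hm
      right; right; right; left
      rw [hgO, ht]
      norm_num
    · subst h1
      have hm : m = 3 / 128 := by linarith
      subst hm
      right; right; right; right; left
      rw [hh, hgO, ht]
      norm_num
    · subst h1
      have hm : m = 13 / 256 := by linarith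
      subst hm
      right; right; right; right; right
      rw [hk, hh, hgO, ht]
      norm_num

variable {V : Type*} [AddCommGroup V] [Module ℝ V] {mul : V →ₗ[ℝ] V →ₗ[ℝ] V}
  {B : LinearMap.BilinForm ℝ V}

/-- The automorphisms of the product and of the form. -/
def autG (mul : V →ₗ[ℝ] V →ₗ[ℝ] V) (B : LinearMap.BilinForm ℝ V) : Subgroup (V ≃ₗ[ℝ] V) where
  carrier := {φ | (∀ u v, φ (mul u v) = mul (φ u) (φ v)) ∧ ∀ u v, B (φ u) (φ v) = B u v}
  one_mem' := ⟨fun _ _ => rfl, fun _ _ => rfl⟩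
  mul_mem' := by
    rintro f g ⟨hf1, hf2⟩ ⟨hg1, hg2⟩
    refine ⟨fun u v => ?_, fun u v => ?_⟩
    · show f (g (mul u v)) = mul (f (g u)) (f (g v))
      rw [hg1, hf1]
    · show B (f (g u)) (f (g v)) = B u v
      rw [hf2, hg2]
  inv_mem' := by
    rintro f ⟨hf1, hf2⟩
    have hs : ∀ x, f (f⁻¹ x) = x := fun x => f.apply_symm_apply x
    refine ⟨fun u v => ?_, fun u v => ?_⟩
    · apply f.injective
      rw [hf1, hs, hs, hs]
    · rw [← hf2 (f⁻¹ u) (f⁻¹ v), hs, hs]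

lemma pair_mem {μ : V ≃ₗ[ℝ] V} {c : V} (h : IsMajoranaPair mul B μ c) : μ ∈ autG mul B :=
  ⟨h.1, h.2.1⟩

/-- A Majorana involution is determined by its axial vector. -/
lemma mu_unique {μ μ' : V ≃ₗ[ℝ] V} {c : V} (h : IsMajoranaPair mul B μ c)
    (h' : IsMajoranaPair mul B μ' c) : μ = μ' := by
  ext x
  obtain ⟨r, e0, e4, e32, h0, h4, h32, rfl⟩ := decomp h x
  simp only [map_add, map_smul, mu_self h, mu_fix_zero h h0, mu_fix_four h h4, mu_neg h h32,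
    mu_self h', mu_fix_zero h' h0, mu_fix_four h' h4, mu_neg h' h32]

section Family

variable {μ₀ μ₁ : V ≃ₗ[ℝ] V} {a₀ a₁ : V}

/-- The sequence of axial vectors. -/
noncomputable def seqA (μ₀ μ₁ : V ≃ₗ[ℝ] V) (a₀ a₁ : V) (i : ℤ) : V :=
  ((μ₁ * μ₀) ^ (i / 2)) (if i % 2 = 0 then a₀ else a₁)

/-- The sequence of involutions. -/
noncomputable def seqT (μ₀ μ₁ : V ≃ₗ[ℝ] V) (i : ℤ) : V ≃ₗ[ℝ] V := (μ₁ * μ₀) ^ i * μ₀

lemma seqA_even (k : ℤ) : seqA μ₀ μ₁ a₀ a₁ (2 * k) = ((μ₁ * μ₀) ^ k) a₀ := by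
  unfold seqA
  have h1 : 2 * k / 2 = k := by omega
  have h2 : 2 * k % 2 = 0 := by omega
  rw [h1, if_pos h2]

lemma seqA_odd (k : ℤ) : seqA μ₀ μ₁ a₀ a₁ (2 * k + 1) = ((μ₁ * μ₀) ^ k) a₁ := by
  unfold seqA
  have h1 : (2 * k + 1) / 2 = k := by omega
  have h2 : ¬ (2 * k + 1) % 2 = 0 := by omega
  rw [h1, if_neg h2]

lemma seq_conj (h₀ : IsMajoranaPair mul B μ₀ a₀) (h₁ : IsMajoranaPair mul B μ₁ a₁) (k : ℤ) :
    μ₀ * (μ₁ * μ₀) ^ k = (μ₁ * μ₀) ^ (-k) * μ₀ := by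
  have hm0 : μ₀ * μ₀ = 1 := mu_mul_mu h₀
  have hm1 : μ₁ * μ₁ = 1 := mu_mul_mu h₁
  have hi0 : μ₀⁻¹ = μ₀ := mu_inv h₀
  have hi1 : μ₁⁻¹ = μ₁ := mu_inv h₁
  have h1 : μ₀ * (μ₁ * μ₀) * μ₀⁻¹ = (μ₁ * μ₀)⁻¹ := by
    rw [mul_inv_rev, hi0, hi1, mul_assoc, mul_assoc, hm0, mul_one]
  have h2 : μ₀ * (μ₁ * μ₀) ^ k * μ₀⁻¹ = (μ₁ * μ₀) ^ (-k) := by
    rw [← conj_zpow, h1, inv_zpow']
  rw [← h2, mul_assoc, mul_assoc, inv_mul_cancel, mul_one]

lemma seq_conj' (h₀ : IsMajoranaPair mul B μ₀ a₀) (h₁ : IsMajoranaPair mul B μ₁ a₁) (k : ℤ) :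
    μ₁ * (μ₁ * μ₀) ^ k = (μ₁ * μ₀) ^ (-k) * μ₁ := by
  have hm0 : μ₀ * μ₀ = 1 := mu_mul_mu h₀
  have hm1 : μ₁ * μ₁ = 1 := mu_mul_mu h₁
  have hi0 : μ₀⁻¹ = μ₀ := mu_inv h₀
  have hi1 : μ₁⁻¹ = μ₁ := mu_inv h₁
  have h1 : μ₁ * (μ₁ * μ₀) * μ₁⁻¹ = (μ₁ * μ₀)⁻¹ := by
    rw [mul_inv_rev, hi0, hi1, ← mul_assoc, hm1, one_mul]
  have h2 : μ₁ * (μ₁ * μ₀) ^ k * μ₁⁻¹ = (μ₁ * μ₀) ^ (-k) := by
    rw [← conj_zpow, h1, inv_zpow']
  rw [← h2, mul_assoc, mul_assoc, inv_mul_cancel, mul_one]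

lemma pair_conj' {μ : V ≃ₗ[ℝ] V} {c : V} (φ : V ≃ₗ[ℝ] V) (hφ : φ ∈ autG mul B)
    (h : IsMajoranaPair mul B μ c) : IsMajoranaPair mul B (φ * μ * φ⁻¹) (φ c) := by
  have := pair_conj φ hφ.1 hφ.2 h
  have he : φ⁻¹.trans (μ.trans φ) = φ * μ * φ⁻¹ := by
    ext x
    rfl
  rwa [he] at this

/-- The family attached to two Majorana pairs. -/
theorem seq_fam (h₀ : IsMajoranaPair mul B μ₀ a₀) (h₁ : IsMajoranaPair mul B μ₁ a₁)
    (hn₀ : B a₀ a₀ = 1) (hn₁ : B a₁ a₁ = 1) :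
    MajFam mul B (seqA μ₀ μ₁ a₀ a₁) (seqT μ₀ μ₁) := by
  have hρ : μ₁ * μ₀ ∈ autG mul B := (autG mul B).mul_mem (pair_mem h₁) (pair_mem h₀)
  have hρk : ∀ k : ℤ, (μ₁ * μ₀) ^ k ∈ autG mul B := fun k => (autG mul B).zpow_mem hρ k
  have hm0 : μ₀ * μ₀ = 1 := mu_mul_mu h₀
  have hm1 : μ₁ * μ₁ = 1 := mu_mul_mu h₁
  refine ⟨fun i => ?_, fun i => ?_, fun i j => ?_⟩
  · obtain ⟨k, rfl | rfl⟩ := Int.even_or_odd' i
    · rw [seqA_even]
      have h := pair_conj' ((μ₁ * μ₀) ^ k) (hρk k) h₀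
      have he : seqT μ₀ μ₁ (2 * k) = (μ₁ * μ₀) ^ k * μ₀ * ((μ₁ * μ₀) ^ k)⁻¹ := by
        unfold seqT
        have := seq_conj h₀ h₁ (-k)
        rw [neg_neg, zpow_neg] at this
        rw [mul_assoc, this, two_mul, zpow_add, mul_assoc]
      rwa [he]
    · rw [seqA_odd]
      have h := pair_conj' ((μ₁ * μ₀) ^ k) (hρk k) h₁
      have he : seqT μ₀ μ₁ (2 * k + 1) = (μ₁ * μ₀) ^ k * μ₁ * ((μ₁ * μ₀) ^ k)⁻¹ := by
        unfold seqT
        have := seq_conj' h₀ h₁ (-k)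
        rw [neg_neg, zpow_neg] at this
        rw [mul_assoc ((μ₁ * μ₀) ^ k) μ₁, this, two_mul, zpow_add_one, zpow_add, mul_assoc,
          mul_assoc, mul_assoc]
        congr 2
        rw [hm0, mul_one]
      rwa [he]
  · obtain ⟨k, rfl | rfl⟩ := Int.even_or_odd' i
    · rw [seqA_even, (hρk k).2, hn₀]
    · rw [seqA_odd, (hρk k).2, hn₁]
  · have hm : ∀ x, μ₀ (μ₀ x) = x := mu_mu h₀
    unfold seqT
    obtain ⟨k, rfl | rfl⟩ := Int.even_or_odd' j
    · have e : 2 * i - 2 * k = 2 * (i - k) := by ring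
      rw [seqA_even, e, seqA_even, LinearEquiv.mul_apply, ← LinearEquiv.mul_apply μ₀,
        seq_conj h₀ h₁, LinearEquiv.mul_apply, mu_self h₀, ← LinearEquiv.mul_apply, ← zpow_add,
        sub_eq_add_neg]
    · have e : 2 * i - (2 * k + 1) = 2 * (i - k - 1) + 1 := by ring
      have h1 : μ₀ a₁ = ((μ₁ * μ₀) ^ (-1 : ℤ)) a₁ := by
        have hi : (μ₁ * μ₀) ^ (-1 : ℤ) = μ₀ * μ₁ := by
          rw [zpow_neg_one, mul_inv_rev, mu_inv h₀, mu_inv h₁]
        rw [hi, LinearEquiv.mul_apply, mu_self h₁]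
      rw [seqA_odd, e, seqA_odd, LinearEquiv.mul_apply, ← LinearEquiv.mul_apply μ₀,
        seq_conj h₀ h₁, LinearEquiv.mul_apply, h1, ← LinearEquiv.mul_apply, ← LinearEquiv.mul_apply,
        ← zpow_add, ← zpow_add]
      ring_nf

lemma eq_of_B_one (hV : IsMajoranaAmbient mul B) {x y : V} (hx : B x x = 1) (hy : B y y = 1)
    (h : B x y = 1) : x = y := by
  have h0 : B (x - y) (x - y) = 0 := by
    simp only [map_sub, LinearMap.sub_apply, hx, hy, h, B_comm hV y x]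
    norm_num
  exact sub_eq_zero.mp (eq_zero_of_self hV h0)

/-- Periodicity of the sequence gives a relation in the dihedral group. -/
lemma pow_eq_one_of (h₀ : IsMajoranaPair mul B μ₀ a₀) (h₁ : IsMajoranaPair mul B μ₁ a₁)
    (hn₀ : B a₀ a₀ = 1) (hn₁ : B a₁ a₁ = 1) (i j : ℤ) (n : ℕ) (hij : j - i = n)
    (h : seqA μ₀ μ₁ a₀ a₁ i = seqA μ₀ μ₁ a₀ a₁ j) : (μ₀ * μ₁) ^ n = 1 := by
  have F := seq_fam h₀ h₁ hn₀ hn₁
  have h1 := F.pair j
  rw [← h] at h1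
  have h2 := mu_unique (F.pair i) h1
  unfold seqT at h2
  have h3 : (μ₁ * μ₀) ^ i = (μ₁ * μ₀) ^ j := mul_right_cancel h2
  have h4 : (μ₁ * μ₀) ^ (n : ℤ) = 1 := by
    rw [← hij, zpow_sub, ← h3, mul_inv_cancel]
  have h5 : μ₀ * μ₁ = (μ₁ * μ₀)⁻¹ := by
    rw [mul_inv_rev, mu_inv h₀, mu_inv h₁]
  rw [h5, inv_pow, ← zpow_natCast, h4, inv_one]

/-- The six-transposition theorem. -/
theorem six_transposition (hV : IsMajoranaAmbient mul B) (h₀ : IsMajoranaPair mul B μ₀ a₀)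
    (h₁ : IsMajoranaPair mul B μ₁ a₁) (hn₀ : B a₀ a₀ = 1) (hn₁ : B a₁ a₁ = 1) :
    ∃ n : ℕ, 1 ≤ n ∧ n ≤ 6 ∧ (μ₀ * μ₁) ^ n = 1 := by
  have F := seq_fam h₀ h₁ hn₀ hn₁
  obtain ⟨l, m, tt, gE, gO, h, k, rfl, rfl, rfl, rfl, rfl, rfl, rfl, ht, hgO, hgE, hh, hk, hE, hE2⟩ :=
    relations hV F
  have key := algebra_core _ _ _ _ _ _ _ ht hgO hgE hh hk hE hE2
  set a := seqA μ₀ μ₁ a₀ a₁ with ha
  have hu := F.unit
  rcases key with h1 | h1 | h1 | h1 | h1 | h1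
  · exact ⟨1, le_rfl, by norm_num, pow_eq_one_of h₀ h₁ hn₀ hn₁ 0 1 1 (by norm_num)
      (eq_of_B_one hV (hu _) (hu _) h1)⟩
  · exact ⟨2, by norm_num, by norm_num, pow_eq_one_of h₀ h₁ hn₀ hn₁ 0 2 2 (by norm_num)
      (eq_of_B_one hV (hu _) (hu _) h1)⟩
  · exact ⟨3, by norm_num, by norm_num, pow_eq_one_of h₀ h₁ hn₀ hn₁ 0 3 3 (by norm_num)
      (eq_of_B_one hV (hu _) (hu _) h1)⟩
  · exact ⟨4, by norm_num, by norm_num, pow_eq_one_of h₀ h₁ hn₀ hn₁ (-3) 1 4 (by norm_num)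
      (eq_of_B_one hV (hu _) (hu _) (by rw [B_comm hV]; exact h1))⟩
  · exact ⟨5, by norm_num, by norm_num, pow_eq_one_of h₀ h₁ hn₀ hn₁ (-3) 2 5 (by norm_num)
      (eq_of_B_one hV (hu _) (hu _) h1)⟩
  · exact ⟨6, by norm_num, by norm_num, pow_eq_one_of h₀ h₁ hn₀ hn₁ (-3) 3 6 (by norm_num)
      (eq_of_B_one hV (hu _) (hu _) (by rw [B_comm hV]; exact h1))⟩

end Family

end Cfsg.Agent.Lib.Majorana.Seq
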